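import Cfsg.Agent.Fi22Out.Main
import Cfsg.Agent.Fi22Aut8.Members

/-!
Automorphisms of the presented Fi22 as the symmetries of its commuting graph on 3510 points.
-/

set_option autoImplicit false
set_option maxRecDepth 100000

namespace CfsgLib.Fi22Invol25

open CfsgLib.CosetEnum CfsgLib.CosetEnum.Fi22 CfsgLib.Fi22Out CfsgLib.Fi22Aut8

theorem autPerm_spec (α : MulAut Cfsg.Spor.Fi22) (p : Pt) : α (tran p) = tran (autPerm α p) :=
  autFun_spec α p

/-- an automorphism as a permutation of the points -/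
noncomputable def permOf : MulAut Cfsg.Spor.Fi22 →* Equiv.Perm Pt where
  toFun := autPerm
  map_one' := Equiv.ext fun p => tran_injective (autPerm_spec 1 p).symm
  map_mul' α β := Equiv.ext fun p => tran_injective (by
    rw [← autPerm_spec (α * β) p, Equiv.Perm.mul_apply, ← autPerm_spec, ← autPerm_spec]; rfl)

theorem permOf_apply (α : MulAut Cfsg.Spor.Fi22) : permOf α = autPerm α := rfl

theorem tran_permOf (α : MulAut Cfsg.Spor.Fi22) (p : Pt) : tran (permOf α p) = α (tran p) :=
  (autPerm_spec α p).symm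

theorem permOf_mem (α : MulAut Cfsg.Spor.Fi22) : permOf α ∈ graphAut := autPerm_mem α

theorem pi_aut (α : MulAut Cfsg.Spor.Fi22) (g : Cfsg.Spor.Fi22) :
    pi (α g) = permOf α * pi g * (permOf α)⁻¹ := by
  rw [eq_mul_inv_iff_mul_eq]
  refine Equiv.ext fun q => tran_injective ?_
  rw [Equiv.Perm.mul_apply, Equiv.Perm.mul_apply, ← tran_conj, tran_permOf, tran_permOf, ← tran_conj,
    map_mul, map_mul, map_inv]

theorem permOf_conj (g : Cfsg.Spor.Fi22) : permOf (MulAut.conj g) = pi g :=
  Equiv.ext fun p => tran_injective (by rw [tran_permOf, MulAut.conj_apply, tran_conj])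

theorem permOf_injective : Function.Injective permOf := by
  intro α β h
  refine MulEquiv.ext fun g => pi_injective ?_
  rw [pi_aut, pi_aut, h]

theorem conj_injective : Function.Injective (MulAut.conj : Cfsg.Spor.Fi22 →* MulAut Cfsg.Spor.Fi22) :=
  fun g h e => pi_injective (by rw [← permOf_conj, ← permOf_conj, e])

theorem outerHom_injective : Function.Injective outerHom := fun u v h => pi_injective
  ((MulAut.conj outerPerm).injective (by rw [← pi_outerHom, ← pi_outerHom, h]))

/-- the automorphism of the diagram symmetry -/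
noncomputable def sigma22 : MulAut Cfsg.Spor.Fi22 :=
  haveI := finite_fi22
  MulEquiv.ofBijective outerHom (Finite.injective_iff_bijective.1 outerHom_injective)

theorem sigma22_apply (g : Cfsg.Spor.Fi22) : sigma22 g = outerHom g := rfl

theorem eq_one_of_commute_pi {c : Equiv.Perm Pt} (hcomm : ∀ g, c * pi g = pi g * c) : c = 1 := by
  have hc0 : c P0 = P0 := by
    by_contra hne
    have hk := (Model.allBelow_iff _ _).1 wordsH_move (c P0 : Pt) (Fin.is_lt _)
    simp only [Bool.or_eq_true, List.any_eq_true, Bool.not_eq_true'] at hk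
    rcases hk with hk | ⟨w, hw, hk⟩
    · exact hne (Fin.ext (Nat.eq_of_beq_eq_true hk))
    have hw9 : ∀ x ∈ w, x < 9 := small (S := Tab.wordsH) (by decide +kernel) w hw
    have hmem : (gword g9 w)⁻¹ ∈ Hs := inv_mem (Subgroup.subset_closure ⟨w, hw, rfl⟩)
    have e : pi (gword g9 w)⁻¹ (c P0) = c P0 := by
      rw [← Equiv.Perm.mul_apply, ← hcomm, Equiv.Perm.mul_apply, (mem_Hs_iff _).1 hmem]
    rw [map_inv, pi_gword _ hw9] at e
    have e' := congrArg Fin.val e
    rw [perm_ok.gword_inv_apply _ hw9] at e'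
    rw [e', Nat.beq_refl] at hk
    exact Bool.noConfusion hk
  refine Equiv.ext fun k => ?_
  obtain ⟨g, rfl⟩ := exists_move k
  rw [← Equiv.Perm.mul_apply, hcomm, Equiv.Perm.mul_apply, hc0, Equiv.Perm.one_apply]

theorem permOf_sigma : permOf sigma22 = outerPerm := by
  have h := eq_one_of_commute_pi (c := outerPerm⁻¹ * permOf sigma22) fun g => by
    have e := pi_aut sigma22 g
    rw [sigma22_apply, pi_outerHom, MulAut.conj_apply] at e
    calc outerPerm⁻¹ * permOf sigma22 * pi g
        = outerPerm⁻¹ * (permOf sigma22 * pi g * (permOf sigma22)⁻¹) * permOf sigma22 := by group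
      _ = pi g * (outerPerm⁻¹ * permOf sigma22) := by rw [← e]; group
  exact (inv_mul_eq_one.1 h).symm

theorem outerPerm_mem : outerPerm ∈ graphAut := permOf_sigma ▸ permOf_mem sigma22

theorem pi_mem_graphAut (g : Cfsg.Spor.Fi22) : pi g ∈ graphAut := permOf_conj g ▸ permOf_mem _

theorem outerPerm_mul_self : outerPerm * outerPerm = 1 :=
  Equiv.ext fun k => Fin.ext (outer_spec k).2.1

theorem sigma22_mul_self : sigma22 * sigma22 = 1 :=
  permOf_injective (by rw [map_mul, permOf_sigma, outerPerm_mul_self, map_one])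

theorem index_inn : (MulAut.conj : Cfsg.Spor.Fi22 →* MulAut Cfsg.Spor.Fi22).range.index = 2 :=
  (Subgroup.index_eq_card _).trans card_out

theorem card_mulAut : Nat.card (MulAut Cfsg.Spor.Fi22) = 129123503308800 := by
  rw [← (MulAut.conj : Cfsg.Spor.Fi22 →* MulAut Cfsg.Spor.Fi22).range.card_mul_index, index_inn,
    ← Nat.card_congr (MonoidHom.ofInjective conj_injective).toEquiv, card_fi22]

theorem finite_mulAut : Finite (MulAut Cfsg.Spor.Fi22) :=
  Nat.finite_of_card_ne_zero (by rw [card_mulAut]; norm_num)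

theorem range_permOf : permOf.range = graphAut := by
  refine Subgroup.eq_of_le_of_card_ge (by rintro _ ⟨α, rfl⟩; exact permOf_mem α) ?_
  rw [← Nat.card_congr (MonoidHom.ofInjective permOf_injective).toEquiv, card_mulAut]
  exact card_graphAut

theorem card_graphAut_eq : Nat.card graphAut = 129123503308800 := by
  rw [← range_permOf, ← Nat.card_congr (MonoidHom.ofInjective permOf_injective).toEquiv, card_mulAut]

theorem sign_permOf_of_not_inner {α : MulAut Cfsg.Spor.Fi22}
    (hα : α ∉ (MulAut.conj : Cfsg.Spor.Fi22 →* MulAut Cfsg.Spor.Fi22).range) :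
    Equiv.Perm.sign (permOf α) = -1 := by
  have hσ : sigma22 ∉ (MulAut.conj : Cfsg.Spor.Fi22 →* MulAut Cfsg.Spor.Fi22).range := by
    rintro ⟨g, hg⟩
    have h := sign_pi g
    rw [← permOf_conj, hg, permOf_sigma, sign_outerPerm] at h
    exact absurd h (by decide)
  obtain ⟨g, hg⟩ := (Subgroup.mul_mem_iff_of_index_two index_inn).2 (iff_of_false hσ hα)
  have e : α = sigma22 * MulAut.conj g := by rw [hg, ← mul_assoc, sigma22_mul_self, one_mul]
  rw [e, map_mul, map_mul, permOf_sigma, permOf_conj, sign_outerPerm, sign_pi, mul_one]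

theorem mem_pre_elim {p : Pt} : ∀ {i : ℕ}, p ∈ pre i → ∃ l < i, p = npt (bnode l) := by
  intro i
  induction i with
  | zero => intro h; exact absurd h List.not_mem_nil
  | succ i ih =>
    intro h
    rcases List.mem_cons.1 h with h | h
    · exact ⟨i, by omega, h⟩
    · obtain ⟨l, hl, e⟩ := ih h
      exact ⟨l, by omega, e⟩

theorem eq_one_of_base {r : Equiv.Perm Pt} (hr : r ∈ graphAut)
    (h : ∀ l < 34, r (npt (bnode l)) = npt (bnode l)) : r = 1 := by
  have hb : pointStab graphAut (pre 34) = ⊥ := Subgroup.card_eq_one.1 stab_base_trivial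
  refine Subgroup.mem_bot.1 (hb ▸ mem_pointStab.2 ⟨hr, fun p hp => ?_⟩)
  obtain ⟨l, hl, rfl⟩ := mem_pre_elim hp
  exact h l hl

theorem eq_of_base {r s : Equiv.Perm Pt} (hr : r ∈ graphAut) (hs : s ∈ graphAut)
    (h : ∀ l < 34, ((r (npt (bnode l)) : Pt) : ℕ) = (s (npt (bnode l)) : Pt)) : r = s := by
  have := eq_one_of_base (r := s⁻¹ * r) (mul_mem (inv_mem hs) hr) fun l hl => by
    rw [Equiv.Perm.mul_apply, show r (npt (bnode l)) = s (npt (bnode l)) from Fin.ext (h l hl)]
    simp
  exact (inv_mul_eq_one.1 this).symm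

end CfsgLib.Fi22Invol25
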