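import Cfsg.Agent.Fi22Aut8.Members
import Cfsg.Agent.Fi22Invol25.Data

/-!
A Sylow 2-subgroup of the group of graph automorphisms of the 3510 points, given by eighteen
generators with their action on an invariant set of 416 points.
-/

set_option autoImplicit false
set_option maxRecDepth 100000

namespace CfsgLib.Fi22Invol25

open CfsgLib.CosetEnum CfsgLib.CosetEnum.Fi22 CfsgLib.Fi22Out CfsgLib.Fi22Aut8

/-- image of one of the 416 points under a word in the generators, the last letter applied first -/
noncomputable def uv : List ℕ → ℕ → ℕ
  | [], k => k
  | i :: w, k => Data.uTab (416 * i + uv w k)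

/-- the word of a generator -/
def uWord (i : ℕ) : List ℕ := Data.uWords.getD i []

/-- the action of a generator on a point, through letters -/
noncomputable def rawU (i p : ℕ) : ℕ :=
  if i = 0 then Fi22Out.Data.outer p else runT Tab.perm.T Tab.perm.L (uWord i).reverse p

/-- the check of one generator -/
noncomputable def genOK (i : ℕ) : Bool :=
  (uWord i).all (fun x => x.blt 9) && allBelow (fun k =>
    (Data.uTab (416 * i + k)).blt 416 &&
      Nat.beq (Data.opt (Data.uTab (416 * i + k))) (rawU i (Data.opt k))) 416

/-- valid letters and the same action on the deciding points -/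
noncomputable def sameO (v w : List ℕ) : Bool :=
  v.all (fun i => i.blt 18) && w.all (fun i => i.blt 18) &&
    Data.sepIdx.all (fun k => k.blt 416 && Nat.beq (uv v k) (uv w k))

/-- a square -/
def sqWord (a : ℕ) : List ℕ := Data.sqWords.getD a []

/-- a conjugate -/
def cjWord (a b : ℕ) : List ℕ := Data.cjWords.getD (18 * a + b) []

/-- a point of the chain -/
def chPt (l : ℕ) : ℕ := Data.chainPts.getD l 0

/-- a transversal of the chain -/
def chWords (l : ℕ) : List (List ℕ) := Data.chainWords.getD l []

/-- the check of one level of the chain -/
noncomputable def levelOK (l : ℕ) : Bool :=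
  (chPt l).blt 416 && (chWords l).all (fun w => w.all (fun i => i.blt 18) &&
    allBelow (fun j => Nat.beq (uv w (chPt j)) (chPt j)) l) &&
  allBelow (fun i => allBelow (fun j =>
    Nat.beq i j || !(Nat.beq (uv ((chWords l).getD i []) (chPt l)) (uv ((chWords l).getD j []) (chPt l))))
    (chWords l).length) (chWords l).length

/-- the points that look like `b` from the separating rows, as bits -/
noncomputable def sepMask (b : ℕ) : ℕ :=
  Data.sepNodes.foldr (fun s m => m &&& (if bitAt (Fi22Out.Data.row s) b then Fi22Out.Data.row s
    else Fi22Out.Data.row s ^^^ (2 ^ 3510 - 1))) (2 ^ 3510 - 1)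

/-- a base point is a deciding point or is singled out by the separating rows -/
noncomputable def sepOK (l : ℕ) : Bool :=
  let b := Fi22Out.Data.nodePt (bnode l) % 3510
  ((Data.opos b).blt 416 && Data.sepIdx.contains (Data.opos b)) || Nat.beq (sepMask b) (2 ^ b)

/-- a word with letters at least `i` -/
def above (i : ℕ) (w : List ℕ) : Bool := w.all fun x => Nat.ble i x && x.blt 18

/-- the word of a leaf -/
def leafWord (k : ℕ) : List ℕ := Data.leafWords.getD k []

/-- the descent: every involution in the coset of `r` and the letters from `i` on is conjugate to a leaf -/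
noncomputable def treeOK : Data.Tree → ℕ → List ℕ → Bool
  | .dead [], _, _ => false
  | .dead (j :: q), i, r => j.blt i && i.blt 19 && above (j + 1) q && sameO (r ++ r) (j :: q)
  | .leaf k, i, r => Nat.beq i 18 && k.blt 27 && (leafWord k == r)
  | .merge c h t, i, r =>
      i.blt 18 && above (i + 1) h && sameO (c ++ r) (r ++ i :: (h ++ c)) && treeOK t (i + 1) r
  | .split s t, i, r => i.blt 18 && treeOK s (i + 1) r && treeOK t (i + 1) (r ++ [i])

end CfsgLib.Fi22Invol25
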