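import Cfsg.Agent.Fi22Invol25.Basic

/-! Kernel checks: relations, orbit chain, separation and the descent. -/

set_option autoImplicit false
set_option maxRecDepth 100000

namespace CfsgLib.Fi22Invol25

open CfsgLib.CosetEnum CfsgLib.CosetEnum.Fi22 CfsgLib.Fi22Out

theorem opt_check : allBelow (fun k => (Data.opt k).blt 3510 && Nat.beq (Data.opos (Data.opt k)) k) 416 = true := by
  decide +kernel

theorem opos_check : allBelow (fun p => !((Data.opos p).blt 416) || Nat.beq (Data.opt (Data.opos p)) p) 3510 = true := by
  decide +kernel

theorem sq_check : allBelow (fun a => above (a + 1) (sqWord a) && sameO [a, a] (sqWord a)) 18 = true := by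
  decide +kernel

theorem cj_check : allBelow (fun a => allBelow (fun b =>
    Nat.ble b a || (above b (cjWord a b) && sameO [a, b] (cjWord a b ++ [a]))) 18) 18 = true := by
  decide +kernel

theorem chain_check : allBelow levelOK 7 = true := by
  decide +kernel

theorem chain_prod : ((List.range 7).map fun l => (chWords l).length).prod = 262144 := by
  decide +kernel

theorem sep_check : ((Data.sepNodes.all fun s => s.blt Fi22Out.Data.nodeCount &&
    (Data.opos (Fi22Out.Data.nodePt s % 3510)).blt 416 &&
    Data.sepIdx.contains (Data.opos (Fi22Out.Data.nodePt s % 3510))) && allBelow sepOK 34) = true := by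
  decide +kernel

theorem tree_check : treeOK Data.tree 1 [0] = true := by
  decide +kernel

end CfsgLib.Fi22Invol25
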