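import Cfsg.Agent.Fi22Invol25.LeafDefs

/-! Kernel checks: leaves 8 to 12. -/

set_option autoImplicit false
set_option maxRecDepth 100000

namespace CfsgLib.Fi22Invol25

open CfsgLib.CosetEnum

theorem leaf_check1 : allFrom leafOK 8 5 = true := by
  decide +kernel

end CfsgLib.Fi22Invol25
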