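import Cfsg.Agent.Fi22Invol25.LeafChecks0
import Cfsg.Agent.Fi22Invol25.LeafChecks1
import Cfsg.Agent.Fi22Invol25.LeafChecks2
import Cfsg.Agent.Fi22Invol25.LeafChecks3
import Cfsg.Agent.Fi22Invol25.LeafChecks4
import Cfsg.Agent.Fi22Invol25.LeafChecks5
/-! The checks of the leaves and the fixed points of the representatives. -/

set_option autoImplicit false
set_option maxRecDepth 100000

namespace CfsgLib.Fi22Invol25

open CfsgLib.CosetEnum CfsgLib.Fi22Out

theorem leaf_check : allBelow leafOK 27 = true := by
  refine (Model.allBelow_iff _ _).2 fun k hk => ?_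
  by_cases h0 : k < 8
  · exact (allFrom_iff _ _ _).1 leaf_check0 k (by omega) (by omega)
  by_cases h1 : k < 13
  · exact (allFrom_iff _ _ _).1 leaf_check1 k (by omega) (by omega)
  by_cases h2 : k < 17
  · exact (allFrom_iff _ _ _).1 leaf_check2 k (by omega) (by omega)
  by_cases h3 : k < 21
  · exact (allFrom_iff _ _ _).1 leaf_check3 k (by omega) (by omega)
  by_cases h4 : k < 24
  · exact (allFrom_iff _ _ _).1 leaf_check4 k (by omega) (by omega)
  by_cases h5 : k < 27
  · exact (allFrom_iff _ _ _).1 leaf_check5 k (by omega) (by omega)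
  omega

theorem rep_fixed : ∀ r < 3, ((List.range 3510).filter fun p => Nat.beq (repFun r p) p).length =
    [360, 64, 72].getD r 0 := by
  decide +kernel

end CfsgLib.Fi22Invol25
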