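import Cfsg.Agent.Fi22Invol25.Basic

/-! The leaf checks: definitions. -/

set_option autoImplicit false
set_option maxRecDepth 100000

namespace CfsgLib.Fi22Invol25

open CfsgLib.CosetEnum CfsgLib.CosetEnum.Fi22 CfsgLib.Fi22Out CfsgLib.Fi22Aut8

/-- the words of a leaf's generators after the first -/
def leafLetters (k : ℕ) : List ℕ := ((leafWord k).drop 1).flatMap uWord

/-- the word carrying a leaf to its representative -/
def conjWord (k : ℕ) : List ℕ := Data.leafConj.getD k []

/-- the class of a leaf -/
def leafCls (k : ℕ) : ℕ := Data.leafClass.getD k 0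

/-- the three representatives on points -/
noncomputable def repFun : ℕ → ℕ → ℕ
  | 0, p => Fi22Out.Data.outer p
  | 1, p => Fi22Out.Data.outer (mt 0 p)
  | _, p => Fi22Out.Data.outer (mt 0 (mt 5 p))

/-- the check of one leaf -/
noncomputable def leafOK (k : ℕ) : Bool :=
  (leafCls k).blt 3 && ((leafWord k).head? == some 0) &&
    ((leafWord k).drop 1).all (fun i => Nat.ble 1 i && i.blt 18) && (conjWord k).all (fun x => x.blt 9) &&
    allBelow (fun l =>
      let b := Fi22Out.Data.nodePt (bnode l) % 3510
      Nat.beq
        (runT Tab.perm.T Tab.perm.L (conjWord k).reverse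
          (Fi22Out.Data.outer (runT Tab.perm.T Tab.perm.L (leafLetters k).reverse b)))
        (repFun (leafCls k) (runT Tab.perm.T Tab.perm.L (conjWord k).reverse b))) 34

end CfsgLib.Fi22Invol25
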