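import Cfsg.Agent.Fi22Invol25.AutPerm
import Cfsg.Agent.Fi22Invol25.LeafDefs

/-! The three representative automorphisms. -/

set_option autoImplicit false
set_option maxRecDepth 100000

namespace CfsgLib.Fi22Invol25

open CfsgLib.CosetEnum CfsgLib.CosetEnum.Fi22 CfsgLib.Fi22Out CfsgLib.Fi22Aut8

/-- the representative automorphisms -/
noncomputable def rep22 : ℕ → MulAut Cfsg.Spor.Fi22
  | 0 => sigma22
  | 1 => sigma22 * MulAut.conj (mem9 0)
  | _ => sigma22 * MulAut.conj (mem9 0 * mem9 5)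

theorem permOf_rep_val {r : ℕ} (hr : r < 3) (p : Pt) : ((permOf (rep22 r) p : Pt) : ℕ) = repFun r p := by
  interval_cases r
  · rw [rep22, permOf_sigma]; rfl
  · rw [rep22, map_mul, permOf_sigma, permOf_conj, Equiv.Perm.mul_apply]
    show Fi22Out.Data.outer _ = _
    rw [pi_mem9 (by norm_num)]; rfl
  · rw [show rep22 2 = sigma22 * MulAut.conj (mem9 0 * mem9 5) from rfl, map_mul, permOf_sigma, permOf_conj,
      map_mul, Equiv.Perm.mul_apply, Equiv.Perm.mul_apply]
    show Fi22Out.Data.outer _ = _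
    rw [pi_mem9 (by norm_num), pi_mem9 (by norm_num)]; rfl

end CfsgLib.Fi22Invol25
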