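import Cfsg.Agent.Fi22Invol25.Sylow
import Cfsg.Agent.Fi22Invol25.Reps
import Cfsg.Agent.Fi22Invol25.LeafChecks

/-!
The non-inner automorphisms of order two of the presented Fi22 fall into three classes, of which the
diagram symmetry and its products with one or two commuting members are representatives.
-/

set_option autoImplicit false
set_option maxRecDepth 100000

namespace CfsgLib.Fi22Invol25

open CfsgLib.CosetEnum CfsgLib.CosetEnum.Fi22 CfsgLib.Fi22Out CfsgLib.Fi22Aut8

theorem tree_sound : ∀ (T : Data.Tree) (i : ℕ) (r : List ℕ), (∀ x ∈ r, x < 18) → treeOK T i r = true →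
    ∀ h ∈ H i, uP r * h * (uP r * h) = 1 →
      ∃ k < 27, ∃ c ∈ H 0, c * (uP r * h) * c⁻¹ = uP (leafWord k) := by
  intro T
  induction T with
  | dead q =>
    intro i r hr hT h hh hsq
    match q, hT with
    | j :: q, hT =>
      simp only [treeOK, Bool.and_eq_true, Nat.blt, Nat.ble_eq] at hT
      obtain ⟨⟨⟨hji, hi⟩, hq⟩, he⟩ := hT
      have hr0 : uP r ∈ H 0 := uP_mem_H fun x hx => ⟨Nat.zero_le _, hr x hx⟩
      have hle : H i ≤ H (j + 1) := H_mono hji
      have hc : (uP r)⁻¹ * h * uP r ∈ H i := by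
        have := conj_mem (inv_mem hr0) hh
        rwa [inv_inv] at this
      have e := uP_eq he
      rw [uP_append, uP_cons] at e
      have e2 : uP r * uP r * ((uP r)⁻¹ * h * uP r * h) = 1 := by
        rw [← hsq]; group
      rw [e] at e2
      refine absurd ?_ (u_not_mem (i := j) (by omega))
      have : u j = ((uP r)⁻¹ * h * uP r * h)⁻¹ * (uP q)⁻¹ := by
        rw [← eq_inv_of_mul_eq_one_left e2]; group
      rw [this]
      exact mul_mem (inv_mem (hle (mul_mem hc hh))) (inv_mem (uP_mem_H (above_spec hq)))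
  | leaf k =>
    intro i r _ hT h hh _
    simp only [treeOK, Bool.and_eq_true, Nat.blt, Nat.ble_eq, beq_iff_eq] at hT
    obtain ⟨⟨hi, hk⟩, he⟩ := hT
    rw [Nat.eq_of_beq_eq_true hi, H_top, Subgroup.mem_bot] at hh
    exact ⟨k, hk, 1, one_mem _, by rw [hh, he]; simp⟩
  | merge c w t ih =>
    intro i r hr hT h hh hsq
    simp only [treeOK, Bool.and_eq_true, Nat.blt, Nat.ble_eq] at hT
    obtain ⟨⟨⟨hi, hw⟩, he⟩, ht⟩ := hT
    rcases mem_H_cases hi hh with h1 | ⟨h', hh', rfl⟩
    · exact ih (i + 1) r hr ht h h1 hsq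
    have hv : ∀ x ∈ c, x < 18 := by
      simp only [sameO, Bool.and_eq_true, List.all_eq_true, Nat.blt, Nat.ble_eq] at he
      exact fun x hx => he.1.1 x (List.mem_append_left _ hx)
    have hc0 : uP c ∈ H 0 := uP_mem_H fun x hx => ⟨Nat.zero_le _, hv x hx⟩
    have e := uP_eq he
    rw [uP_append, uP_append, uP_cons, uP_append] at e
    have hmem : (uP c)⁻¹ * ((uP w)⁻¹ * h') * uP c ∈ H (i + 1) := by
      have := conj_mem (inv_mem hc0) (mul_mem (inv_mem (uP_mem_H (above_spec hw))) hh')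
      rwa [inv_inv] at this
    have ht' : uP r * (u i * h') = uP c * (uP r * ((uP c)⁻¹ * ((uP w)⁻¹ * h') * uP c)) * (uP c)⁻¹ := by
      calc uP r * (u i * h') = uP r * (u i * (uP w * uP c)) * ((uP c)⁻¹ * ((uP w)⁻¹ * h')) := by group
        _ = uP c * uP r * ((uP c)⁻¹ * ((uP w)⁻¹ * h')) := by rw [← e]
        _ = _ := by group
    obtain ⟨k, hk, d, hd, hde⟩ := ih (i + 1) r hr ht _ hmem (by
      rw [ht'] at hsq
      have := congrArg (fun z => (uP c)⁻¹ * z * uP c) hsq
      simp only [mul_one, inv_mul_cancel] at this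
      rw [← this]; group)
    refine ⟨k, hk, d * (uP c)⁻¹, mul_mem hd (inv_mem hc0), ?_⟩
    rw [ht', ← hde]; group
  | split s t ihs iht =>
    intro i r hr hT h hh hsq
    simp only [treeOK, Bool.and_eq_true, Nat.blt, Nat.ble_eq] at hT
    obtain ⟨⟨hi, hs⟩, ht⟩ := hT
    rcases mem_H_cases hi hh with h1 | ⟨h', hh', rfl⟩
    · exact ihs (i + 1) r hr hs h h1 hsq
    · have e : uP r * (u i * h') = uP (r ++ [i]) * h' := by rw [uP_append, uP_singleton, mul_assoc]
      rw [e] at hsq ⊢
      refine iht (i + 1) _ (fun x hx => ?_) ht h' hh' hsq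
      rcases List.mem_append.1 hx with hx | hx
      · exact hr x hx
      · rw [List.mem_singleton.1 hx]; exact hi

theorem uP_inner : ∀ {w : List ℕ}, (∀ x ∈ w, 1 ≤ x ∧ x < 18) →
    uP w = pi (gword g9 (w.flatMap uWord))
  | [], _ => by simp [uP_nil, gword_nil]
  | x :: w, h => by
    rw [uP_cons, List.flatMap_cons, gword_g9_append, map_mul,
      uP_inner fun y hy => h y (List.mem_cons_of_mem _ hy), u,
      if_neg (by have := (h x List.mem_cons_self).1; omega)]

theorem flatMap_lt {w : List ℕ} (h : ∀ x ∈ w, 1 ≤ x ∧ x < 18) : ∀ y ∈ w.flatMap uWord, y < 9 := by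
  intro y hy
  obtain ⟨x, hx, hy⟩ := List.mem_flatMap.1 hy
  have hg := gen_ok (h x hx).2
  simp only [genOK, Bool.and_eq_true, List.all_eq_true, Nat.blt, Nat.ble_eq] at hg
  exact hg.1 y hy

theorem leaf_conj {k : ℕ} (hk : k < 27) : ∃ r < 3, ∃ g ∈ graphAut,
    g * uP (leafWord k) * g⁻¹ = permOf (rep22 r) := by
  have h := (Model.allBelow_iff _ _).1 leaf_check k hk
  simp only [leafOK, Bool.and_eq_true, List.all_eq_true, Nat.blt, Nat.ble_eq, Model.allBelow_iff,
    beq_iff_eq] at h
  obtain ⟨⟨⟨⟨hr, hhead⟩, hrest⟩, hg⟩, heq⟩ := h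
  refine ⟨leafCls k, hr, pi (gword g9 (conjWord k)), pi_mem_graphAut _, ?_⟩
  rw [mul_inv_eq_iff_eq_mul]
  refine eq_of_base (mul_mem (pi_mem_graphAut _) (uP_mem _))
    (mul_mem (permOf_mem _) (pi_mem_graphAut _)) fun l hl => ?_
  have hw : leafWord k = 0 :: (leafWord k).drop 1 := by
    cases hlw : leafWord k with
    | nil => rw [hlw] at hhead; simp at hhead
    | cons x xs => rw [hlw] at hhead; simp at hhead; simp [hhead]
  rw [hw, uP_cons, u, if_pos rfl, uP_inner hrest]
  simp only [Equiv.Perm.mul_apply]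
  rw [pi_gword_apply hg, permOf_rep_val hr, pi_gword_apply hg]
  show runT _ _ _ (Fi22Out.Data.outer _) = _
  rw [pi_gword_apply (flatMap_lt hrest)]
  exact Nat.eq_of_beq_eq_true (heq l hl)

theorem outer_classes (α : MulAut Cfsg.Spor.Fi22) (h2 : α * α = 1)
    (hα : α ∉ (MulAut.conj : Cfsg.Spor.Fi22 →* MulAut Cfsg.Spor.Fi22).range) :
    ∃ r < 3, IsConj α (rep22 r) := by
  have hx2 : permOf α * permOf α = 1 := by rw [← map_mul, h2, map_one]
  obtain ⟨c, hc, hT⟩ := exists_conj_mem (permOf_mem α) hx2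
  have hsgn : Equiv.Perm.sign (c * permOf α * c⁻¹) = -1 := by
    simp [sign_permOf_of_not_inner hα]
  have hH1 : ∀ x ∈ H 1, Equiv.Perm.sign x = 1 := by
    intro x hx
    induction hx using Subgroup.closure_induction with
    | mem y hy =>
      obtain ⟨j, ⟨hj, -⟩, rfl⟩ := hy
      rw [u, if_neg (by omega), sign_pi]
    | one => simp
    | mul a b _ _ ha hb => rw [map_mul, ha, hb, mul_one]
    | inv a _ ha => rw [map_inv, ha, inv_one]
  rcases mem_H_cases (by norm_num) hT with h0 | ⟨h, hh, he⟩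
  · rw [hH1 _ h0] at hsgn; exact absurd hsgn (by decide)
  obtain ⟨k, hk, d, hd, hde⟩ := tree_sound Data.tree 1 [0] (by simp) tree_check h hh (by
    rw [uP_singleton, ← he]
    calc c * permOf α * c⁻¹ * (c * permOf α * c⁻¹) = c * (permOf α * permOf α) * c⁻¹ := by group
      _ = 1 := by rw [hx2]; group)
  obtain ⟨r, hr, g, hg, hge⟩ := leaf_conj hk
  obtain ⟨β, hβ⟩ : g * d * c ∈ permOf.range :=
    range_permOf ▸ mul_mem (mul_mem hg (H_le_graphAut 0 hd)) hc
  refine ⟨r, hr, isConj_iff.2 ⟨β, permOf_injective ?_⟩⟩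
  rw [map_mul, map_mul, map_inv, hβ, ← hge, ← hde, uP_singleton, ← he]
  group

theorem conj_fixed_count {r : ℕ} (hr : r < 3) :
    {p : Pt | permOf (rep22 r) p = p}.ncard = [360, 64, 72].getD r 0 := by
  rw [← rep_fixed r hr, ← Set.ncard_image_of_injective _ Fin.val_injective,
    ← List.toFinset_card_of_nodup (List.nodup_range.filter _), ← Set.ncard_coe_finset]
  refine congrArg Set.ncard (Set.ext fun m => ?_)
  simp only [Set.mem_image, Set.mem_ofPred_eq, List.coe_toFinset, List.mem_filter, List.mem_range]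
  constructor
  · rintro ⟨p, hp, rfl⟩
    refine ⟨p.2, ?_⟩
    rw [← permOf_rep_val hr, hp]
    exact Nat.beq_refl _
  · rintro ⟨hm, hb⟩
    exact ⟨pt m hm, Fin.ext (by rw [permOf_rep_val hr]; exact Nat.eq_of_beq_eq_true hb), rfl⟩

theorem rep_not_conj {r r' : ℕ} (hr : r < 3) (hr' : r' < 3) (h : IsConj (rep22 r) (rep22 r')) : r = r' := by
  obtain ⟨β, hβ⟩ := isConj_iff.1 h
  have he : {p : Pt | permOf (rep22 r') p = p} = permOf β '' {p : Pt | permOf (rep22 r) p = p} := by
    ext p
    simp only [Set.mem_image, Set.mem_ofPred_eq, ← hβ, map_mul, map_inv, Equiv.Perm.mul_apply]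
    constructor
    · intro hp
      refine ⟨(permOf β)⁻¹ p, ?_, by simp⟩
      exact (permOf β).injective (by simpa using hp)
    · rintro ⟨q, hq, rfl⟩
      simp [hq]
  have hc := conj_fixed_count hr'
  rw [he, Set.ncard_image_of_injective _ (permOf β).injective, conj_fixed_count hr] at hc
  interval_cases r <;> interval_cases r' <;> first | rfl | simp at hc

end CfsgLib.Fi22Invol25
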