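import Cfsg.Agent.Fi22Invol25.FixSigma
import Cfsg.Agent.Fi22Invol25.FixData
import Cfsg.Agent.Classical.Orth.OrderStd
import Cfsg.Agent.Char2Forms.Basic

/-!
The subgroups of the group of the nine members fixing one or two commuting members: orders and the
matrices over the field with two elements.
-/

set_option autoImplicit false
set_option maxRecDepth 100000

open scoped Matrix MatrixGroups

namespace CfsgLib.Fi22Invol25

open CfsgLib.CosetEnum CfsgLib.CosetEnum.Fi22 CfsgLib.Fi22Out CfsgLib.Fi22Aut8 CfsgLib.O8Mult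

/-- elements fixing a point -/
noncomputable def stabPt (p : Pt) : Subgroup Cfsg.Spor.Fi22 where
  carrier := {g | pi g p = p}
  one_mem' := by simp
  mul_mem' := fun {a b} ha hb => by
    show pi (a * b) p = p
    rw [map_mul, Equiv.Perm.mul_apply, hb, ha]
  inv_mem' := fun {a} ha => by
    show pi a⁻¹ p = p
    rw [map_inv, Equiv.Perm.inv_eq_iff_eq, ha]

theorem mem_stabPt {p : Pt} {g : Cfsg.Spor.Fi22} : g ∈ stabPt p ↔ pi g p = p := Iff.rfl

theorem card_orbit_mul (K : Subgroup Cfsg.Spor.Fi22) (p : Pt) :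
    {q : Pt | ∃ g ∈ K, pi g p = q}.ncard * Nat.card ↥(K ⊓ stabPt p) = Nat.card ↥K := by
  haveI := finite_fi22
  letI : MulAction ↥K Pt := MulAction.compHom Pt (pi.comp K.subtype)
  have h1 := Nat.card_congr (MulAction.orbitProdStabilizerEquivGroup ↥K p)
  rw [Nat.card_prod] at h1
  rw [← h1]
  congr 1
  · rw [Nat.card_coe_set_eq]
    refine congrArg Set.ncard (Set.ext fun q => ⟨?_, ?_⟩)
    · rintro ⟨g, hg, rfl⟩; exact ⟨⟨g, hg⟩, rfl⟩
    · rintro ⟨⟨g, hg⟩, rfl⟩; exact ⟨g, hg, rfl⟩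
  · exact Nat.card_congr
      { toFun := fun g => ⟨⟨g.1, g.2.1⟩, g.2.2⟩
        invFun := fun g => ⟨g.1.1, g.1.2, g.2⟩
        left_inv := fun _ => rfl
        right_inv := fun _ => rfl }

theorem matches_lift (e : O2) : Matches (liftHom e) e := by
  let E := MulEquiv.ofBijective sndHom ⟨sndHom_injective, sndHom_surjective⟩
  have h := matches_of_mem (E.symm e).2
  have h2 : ((E.symm e : ↥pairs) : Cfsg.Spor.Fi22 × O2).2 = e := E.apply_symm_apply e
  rw [h2] at h
  exact h

/-- the member point of a mask -/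
noncomputable def cpt (c : ℕ) : Pt := ⟨Fi22Aut8.Data.maskPt c % 3510, Nat.mod_lt _ (by norm_num)⟩

theorem cpt_eq {c : ℕ} (hc : c < 256) (hq : qb c = true) : cpt c = pt (Fi22Aut8.Data.maskPt c) (maskPt_lt hc hq).1 :=
  Fin.ext (Nat.mod_eq_of_lt (maskPt_lt hc hq).1)

theorem cpt_val {c : ℕ} (hc : c < 256) (hq : qb c = true) : ((cpt c : Pt) : ℕ) = Fi22Aut8.Data.maskPt c := by
  rw [cpt_eq hc hq]; rfl

theorem cpt_inj {c d : ℕ} (hc : c < 256) (hd : d < 256) (qc : qb c = true) (qd : qb d = true)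
    (h : cpt c = cpt d) : c = d := by
  have h' := congrArg (fun p : Pt => mask (p : ℕ)) h
  simp only [cpt_val hc qc, cpt_val hd qd, (maskPt_lt hc qc).2, (maskPt_lt hd qd).2] at h'
  exact h'

/-- the matrix of an isometry -/
abbrev mat (e : O2) : Matrix J J (ZMod 2) := ((e : GL J (ZMod 2)) : Matrix J J (ZMod 2))

theorem lift_cpt (e : O2) {c : ℕ} (hc : c < 256) (hq : qb c = true) :
    ∃ d, d < 256 ∧ qb d = true ∧ mat e *ᵥ vec c = vec d ∧ pi (liftHom e) (cpt c) = cpt d := by
  obtain ⟨d, hd, hdq, he, hp⟩ := matches_lift e c hc hq (maskPt_lt hc hq).1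
  refine ⟨d, hd, hdq, he, Fin.ext ?_⟩
  rw [cpt_eq hc hq, cpt_val hd hdq]
  exact hp

theorem lift_cpt_eq (e : O2) {c d : ℕ} (hc : c < 256) (hq : qb c = true) (hd : d < 256) (hdq : qb d = true) :
    pi (liftHom e) (cpt c) = cpt d ↔ mat e *ᵥ vec c = vec d := by
  obtain ⟨d', hd', hdq', he, hp⟩ := lift_cpt e hc hq
  rw [hp, he]
  exact ⟨fun h => by rw [cpt_inj hd' hd hdq' hdq h], fun h => by rw [vec_inj hd' hd h]⟩

theorem alpha_facts : qb 69 = true ∧ qb 100 = true ∧ Fi22Aut8.Data.maskPt 69 = mpoint 0 ∧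
    Fi22Aut8.Data.maskPt 100 = mpoint 5 ∧ qb (100 ^^^ 69) = false := by
  decide +kernel

theorem cpt_zero : cpt 69 = pt (mpoint 0) (mpoint_lt (by norm_num)) :=
  Fin.ext ((cpt_val (by norm_num) alpha_facts.1).trans alpha_facts.2.2.1)

theorem cpt_five : cpt 100 = pt (mpoint 5) (mpoint_lt (by norm_num)) :=
  Fin.ext ((cpt_val (by norm_num) alpha_facts.2.1).trans alpha_facts.2.2.2.1)

theorem mem9_zero_eq : mem9 0 = tran (cpt 69) := by rw [cpt_zero, mem9_eq_tran (by norm_num)]

theorem mem9_five_eq : mem9 5 = tran (cpt 100) := by rw [cpt_five, mem9_eq_tran (by norm_num)]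

/-- orthogonal to 69, of value one and different from it -/
def nb63 (c : ℕ) : Bool := qb c && !(qb (c ^^^ 69)) && !(Nat.beq c 69)

theorem word_check : allBelow (fun c => !(qb c) ||
    ((FixData.words1.getD c []).all (fun j => j.blt 8) &&
      Nat.beq (ev (FixData.words1.getD c []) (mpoint 0)) (Fi22Aut8.Data.maskPt c) &&
      (!(nb63 c) || ((FixData.words2.getD c []).all (fun j => j.blt 8) &&
        Nat.beq (ev (FixData.words2.getD c []) (mpoint 5)) (Fi22Aut8.Data.maskPt c) &&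
        Nat.beq (ev (FixData.words2.getD c []) (mpoint 0)) (mpoint 0))))) 256 = true := by
  decide +kernel

theorem count_check : ((List.range 256).filter qb).length = 120 ∧ ((List.range 256).filter nb63).length = 63 := by
  decide +kernel

theorem uw_range {w : List ℕ} (hw : ∀ j ∈ w, j < 8) : uw w ∈ liftHom.range := by
  induction w with
  | nil => rw [uw_nil]; exact one_mem _
  | cons j w ih =>
    rw [uw_cons]
    exact mul_mem ⟨S ⟨j, hw j List.mem_cons_self⟩, liftHom_S _⟩ (ih fun i hi => hw i (List.mem_cons_of_mem _ hi))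

theorem pi_uw_cpt {w : List ℕ} (hw : ∀ j ∈ w, j < 9) {c d : ℕ} (hc : c < 256) (hq : qb c = true) (hd : d < 256)
    (hdq : qb d = true) (h : ev w (Fi22Aut8.Data.maskPt c) = Fi22Aut8.Data.maskPt d) : pi (uw w) (cpt c) = cpt d :=
  Fin.ext (by rw [pi_uw hw, cpt_val hc hq, h, cpt_val hd hdq])

theorem ncard_cpt_image (f : ℕ → Bool) (hf : ∀ c, f c = true → qb c = true) :
    (cpt '' {c | c < 256 ∧ f c = true}).ncard = ((List.range 256).filter f).length := by
  rw [Set.InjOn.ncard_image fun c hc d hd h => cpt_inj hc.1 hd.1 (hf c hc.2) (hf d hd.2) h,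
    ← List.toFinset_card_of_nodup (List.nodup_range.filter _), ← Set.ncard_coe_finset]
  refine congrArg Set.ncard (Set.ext fun m => ?_)
  simp

/-- elements of the nine-member group fixing the first member -/
noncomputable def I1 : Subgroup Cfsg.Spor.Fi22 := I9 ⊓ stabPt (cpt 69)

/-- elements of the nine-member group fixing the first and sixth members -/
noncomputable def I2 : Subgroup Cfsg.Spor.Fi22 := I1 ⊓ stabPt (cpt 100)

theorem liftHom_mem_I9 (e : O2) : liftHom e ∈ I9 := by
  have h : e ∈ Subgroup.closure (Set.range S) := closure_S ▸ Subgroup.mem_top e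
  induction h using Subgroup.closure_induction with
  | mem x hx => obtain ⟨j, rfl⟩ := hx; rw [liftHom_S]; exact mem9_mem (by omega)
  | one => rw [map_one]; exact one_mem _
  | mul x y _ _ hx hy => rw [map_mul]; exact mul_mem hx hy
  | inv x _ hx => rw [map_inv]; exact inv_mem hx

theorem I1_eq : I1 = liftHom.range ⊓ stabPt (cpt 69) := by
  refine le_antisymm (fun g hg => ⟨mem_lift_range hg.1 (by rw [← cpt_zero]; exact hg.2), hg.2⟩) ?_
  rintro _ ⟨⟨e, rfl⟩, h⟩
  exact ⟨liftHom_mem_I9 e, h⟩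

theorem card_O2 : Nat.card ↥O2 = 348364800 := by
  rw [CfsgLib.Classical.Orth.card_isometryGroup_plus]
  simp [CfsgLib.Classical.Orth.evenProd, Finset.prod_range_succ]

theorem card_I1 : Nat.card ↥I1 = 2903040 := by
  have h := card_orbit_mul liftHom.range (cpt 69)
  rw [← I1_eq, ← Nat.card_congr (MonoidHom.ofInjective liftHom_injective).toEquiv, card_O2] at h
  have hset : {q : Pt | ∃ g ∈ liftHom.range, pi g (cpt 69) = q} = cpt '' {c | c < 256 ∧ qb c = true} := by
    ext q
    constructor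
    · rintro ⟨_, ⟨e, rfl⟩, rfl⟩
      obtain ⟨d, hd, hdq, -, hp⟩ := lift_cpt e (c := 69) (by norm_num) alpha_facts.1
      exact ⟨d, ⟨hd, hdq⟩, hp.symm⟩
    · rintro ⟨d, ⟨hd, hdq⟩, rfl⟩
      have hw := (Model.allBelow_iff _ _).1 word_check d hd
      simp only [hdq, Bool.not_true, Bool.false_or, Bool.and_eq_true, List.all_eq_true, Nat.blt,
        Nat.ble_eq] at hw
      refine ⟨_, uw_range hw.1.1, pi_uw_cpt (fun j hj => (hw.1.1 j hj).trans (by norm_num)) (by norm_num)
        alpha_facts.1 hd hdq ?_⟩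
      rw [alpha_facts.2.2.1]
      exact Nat.eq_of_beq_eq_true hw.1.2
  rw [hset, ncard_cpt_image qb (fun _ h => h), count_check.1] at h
  omega

/-- a vector's bilinear product with another through the quadratic form -/
def Bm : Matrix J J (ZMod 2) := Matrix.of fun x y =>
  match x, y with
  | .inl k, .inr l => if k = l then 1 else 0
  | .inr k, .inl l => if k = l then 1 else 0
  | _, _ => 0

theorem q_add (x y : J → ZMod 2) : Q2 (x + y) = Q2 x + Q2 y + x ⬝ᵥ (Bm *ᵥ y) := by
  simp only [Q2, Cfsg.quadFormPlus, dotProduct, Matrix.mulVec, Bm, Matrix.of_apply, Fintype.sum_sum_type,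
    Fin.sum_univ_four, Pi.add_apply]
  simp
  ring

theorem q_iso (e : O2) (x : J → ZMod 2) : Q2 (mat e *ᵥ x) = Q2 x := CfsgLib.Char2Forms.mem_iso.1 e.2 x

theorem bm_iso (e : O2) : (mat e)ᵀ * Bm * mat e = Bm := by
  ext i j
  have h : ∀ x y : J → ZMod 2, (mat e *ᵥ x) ⬝ᵥ (Bm *ᵥ (mat e *ᵥ y)) = x ⬝ᵥ (Bm *ᵥ y) := fun x y => by
    have h1 := q_add (mat e *ᵥ x) (mat e *ᵥ y)
    rw [← Matrix.mulVec_add, q_iso, q_iso, q_iso, q_add x y] at h1
    exact (add_left_cancel h1).symm
  have h2 := h (Pi.single i 1) (Pi.single j 1)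
  rw [Matrix.mulVec_mulVec, Matrix.dotProduct_mulVec, Matrix.vecMul_mulVec, ← Matrix.dotProduct_mulVec,
    ← Matrix.mul_assoc] at h2
  simpa [Matrix.mulVec_single_one, single_dotProduct] using h2

theorem card_I2 : Nat.card ↥I2 = 46080 := by
  have h := card_orbit_mul I1 (cpt 100)
  have hset : {q : Pt | ∃ g ∈ I1, pi g (cpt 100) = q} = cpt '' {c | c < 256 ∧ nb63 c = true} := by
    ext q
    constructor
    · rintro ⟨g, hg, rfl⟩
      rw [I1_eq] at hg
      obtain ⟨⟨e, rfl⟩, hfix⟩ := hg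
      obtain ⟨d, hd, hdq, he, hp⟩ := lift_cpt e (c := 100) (by norm_num) alpha_facts.2.1
      refine ⟨d, ⟨hd, ?_⟩, hp.symm⟩
      have hv : mat e *ᵥ vec 69 = vec 69 :=
        (lift_cpt_eq e (by norm_num) alpha_facts.1 (by norm_num) alpha_facts.1).1 hfix
      have h69 : qb (d ^^^ 69) = false := by
        have h1 := q_iso e (vec 100 + vec 69)
        rw [Matrix.mulVec_add, he, hv, ← vec_xor, ← vec_xor, q_vec, q_vec, alpha_facts.2.2.2.2] at h1
        revert h1; cases qb (d ^^^ 69) <;> simp [b2z]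
      have hne : d ≠ 69 := by
        rintro rfl
        have h1 := (pi (liftHom e)).injective (hp.trans hfix.symm)
        exact absurd (cpt_inj (by norm_num) (by norm_num) alpha_facts.2.1 alpha_facts.1 h1) (by norm_num)
      simp only [nb63, hdq, h69, Bool.not_false, Bool.true_and, Bool.not_eq_true']
      exact Bool.eq_false_iff.2 fun hb => hne (Nat.eq_of_beq_eq_true hb)
    · rintro ⟨d, ⟨hd, hdn⟩, rfl⟩
      have hdq : qb d = true := by simp only [nb63, Bool.and_eq_true] at hdn; exact hdn.1.1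
      have hw := (Model.allBelow_iff _ _).1 word_check d hd
      simp only [hdq, hdn, Bool.not_true, Bool.false_or, Bool.and_eq_true, List.all_eq_true, Nat.blt,
        Nat.ble_eq] at hw
      have h9 : ∀ j ∈ FixData.words2.getD d [], j < 9 := fun j hj => (hw.2.1.1 j hj).trans (by norm_num)
      refine ⟨_, I1_eq ▸ ⟨uw_range hw.2.1.1, pi_uw_cpt h9 (by norm_num) alpha_facts.1 (by norm_num)
        alpha_facts.1 ?_⟩, pi_uw_cpt h9 (by norm_num) alpha_facts.2.1 hd hdq ?_⟩
      · first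
          | (rw [alpha_facts.2.2.1]; exact Nat.eq_of_beq_eq_true hw.2.2)
          | (rw [alpha_facts.2.2.2.1]; exact Nat.eq_of_beq_eq_true hw.2.1.2)
      · first
          | (rw [alpha_facts.2.2.1]; exact Nat.eq_of_beq_eq_true hw.2.2)
          | (rw [alpha_facts.2.2.2.1]; exact Nat.eq_of_beq_eq_true hw.2.1.2)
  rw [hset, ncard_cpt_image nb63 (fun c hc => by simp only [nb63, Bool.and_eq_true] at hc; exact hc.1.1),
    count_check.2, card_I1] at h
  show Nat.card ↥(I1 ⊓ stabPt (cpt 100)) = 46080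
  omega

end CfsgLib.Fi22Invol25
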