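import Cfsg.Agent.Fi22Invol25.FixCommon
import Cfsg.Agent.Fi22Invol25.LeafDefs
import Cfsg.Agent.Classical.Symp.Card
import Cfsg.Agent.Classical.Symp.Simple

/-!
The fixed group of the diagram symmetry times one member is a group of order two times `Sp6(2)`.
-/

set_option autoImplicit false
set_option maxRecDepth 100000

open scoped Matrix MatrixGroups

namespace CfsgLib.Fi22Invol25

open CfsgLib.CosetEnum CfsgLib.CosetEnum.Fi22 CfsgLib.Fi22Out CfsgLib.Fi22Aut8 CfsgLib.O8Mult

/-- index of the six coordinates -/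
abbrev K6 : Type := Fin 3 ⊕ Fin 3

/-- the codes of the six vectors -/
def pCode : K6 → ℕ
  | .inl i => [1, 2, 8].getD i 0
  | .inr i => [20, 32, 128].getD i 0

/-- the functionals of the six coordinates -/
def rCode : K6 → ℕ
  | .inl i => [65, 2, 8].getD i 0
  | .inr i => [16, 32, 128].getD i 0

/-- the six vectors -/
def Pm : Matrix J K6 (ZMod 2) := Matrix.of fun j i => vec (pCode i) j

/-- the six coordinates -/
def Rm : Matrix K6 J (ZMod 2) := Matrix.of fun i j => vec (rCode i) j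

theorem split_one : Pm * Rm + Matrix.vecMulVec (vec 69) (vec 64) + Matrix.vecMulVec (vec 4) (vec 84) = 1 := by
  decide +kernel

theorem R_v : Rm *ᵥ vec 69 = 0 := by decide +kernel

theorem mu_P : vec 84 ᵥ* Pm = 0 := by decide +kernel

theorem bm_v : Bm *ᵥ vec 69 = vec 84 := by decide +kernel

theorem bm_split : Rmᵀ * Matrix.J (Fin 3) (ZMod 2) * Rm + Matrix.vecMulVec (vec 64) (vec 84) +
    Matrix.vecMulVec (vec 84) (vec 64) = Bm := by
  decide +kernel

theorem bm_P : Pmᵀ * Bm * Pm = Matrix.J (Fin 3) (ZMod 2) := by decide +kernel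

theorem col_check : ∀ i : K6, ∀ c : ZMod 2, Q2 (vec (pCode i) + c • vec 69) = Q2 (vec (pCode i)) → c = 0 := by
  decide +kernel

theorem z_check : allBelow (fun c => qb c || Nat.beq c 4 || Nat.beq c (4 ^^^ 69) ||
    !(qb (c ^^^ 69) == qb (4 ^^^ 69)) ||
    !([1, 2, 8, 20, 32, 128].all fun p => qb (c ^^^ p) == qb (4 ^^^ p))) 256 = true := by
  decide +kernel

/-- isometries fixing the vector 69 -/
noncomputable def stabV : Subgroup ↥O2 where
  carrier := {e | mat e *ᵥ vec 69 = vec 69}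
  one_mem' := by simp [mat]
  mul_mem' := fun {a b} ha hb => by
    show mat (a * b) *ᵥ vec 69 = vec 69
    rw [mat, Subgroup.coe_mul, Units.val_mul, ← Matrix.mulVec_mulVec, hb, ha]
  inv_mem' := fun {a} ha => by
    show mat a⁻¹ *ᵥ vec 69 = vec 69
    conv_lhs => rw [← ha]
    rw [Matrix.mulVec_mulVec, mat, mat, ← Units.val_mul, ← Subgroup.coe_mul, inv_mul_cancel,
      Subgroup.coe_one, Units.val_one, Matrix.one_mulVec]

theorem mu_inv (e : ↥stabV) : vec 84 ᵥ* mat e.1 = vec 84 := by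
  have he : mat e.1 *ᵥ vec 69 = vec 69 := e.2
  have h : (mat e.1)ᵀ *ᵥ (Bm *ᵥ (mat e.1 *ᵥ vec 69)) = Bm *ᵥ vec 69 := by
    rw [Matrix.mulVec_mulVec, Matrix.mulVec_mulVec, bm_iso]
  rw [he, bm_v, Matrix.mulVec_transpose] at h
  exact h

theorem vmv_zero {α β : Type} (w : α → ZMod 2) : Matrix.vecMulVec w (0 : β → ZMod 2) = 0 := by
  ext i j
  simp [Matrix.vecMulVec_apply]

/-- the action on the six-dimensional section -/
def psiM (e : ↥stabV) : Matrix K6 K6 (ZMod 2) := Rm * mat e.1 * Pm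

theorem mu_MP (e : ↥stabV) : vec 84 ᵥ* (mat e.1 * Pm) = 0 := by
  rw [← Matrix.vecMul_vecMul, mu_inv, mu_P]

theorem PR_MP (e : ↥stabV) : Pm * psiM e = mat e.1 * Pm +
    Matrix.vecMulVec (vec 69) (vec 64 ᵥ* (mat e.1 * Pm)) := by
  have h : Pm * Rm = 1 + Matrix.vecMulVec (vec 69) (vec 64) + Matrix.vecMulVec (vec 4) (vec 84) := by
    conv_rhs => rw [← split_one]
    ext i j
    simp only [Matrix.add_apply]
    generalize (Pm * Rm) i j = a
    generalize Matrix.vecMulVec (vec 69) (vec 64) i j = b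
    generalize Matrix.vecMulVec (vec 4) (vec 84) i j = c
    revert a b c; decide
  rw [psiM, Matrix.mul_assoc, ← Matrix.mul_assoc Pm, h, Matrix.add_mul, Matrix.add_mul, Matrix.one_mul,
    Matrix.vecMulVec_mul, Matrix.vecMulVec_mul, mu_MP, vmv_zero, add_zero]

theorem psiM_mul (e f : ↥stabV) : psiM (e * f) = psiM e * psiM f := by
  have h : mat (e * f).1 = mat e.1 * mat f.1 := by simp [mat]
  have hz : Rm * mat e.1 * Matrix.vecMulVec (vec 69) (vec 64 ᵥ* (mat f.1 * Pm)) = 0 := by
    rw [Matrix.mul_vecMulVec, ← Matrix.mulVec_mulVec, e.2, R_v, Matrix.zero_vecMulVec]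
  rw [show psiM e * psiM f = Rm * mat e.1 * (Pm * psiM f) by simp only [psiM, Matrix.mul_assoc],
    PR_MP, Matrix.mul_add, hz, add_zero, psiM, h]
  simp only [Matrix.mul_assoc]

theorem psiM_symp (e : ↥stabV) : psiM e ∈ Matrix.symplecticGroup (Fin 3) (ZMod 2) := by
  rw [SymplecticGroup.mem_iff']
  have h : Rmᵀ * Matrix.J (Fin 3) (ZMod 2) * Rm = Bm + Matrix.vecMulVec (vec 64) (vec 84) +
      Matrix.vecMulVec (vec 84) (vec 64) := by
    conv_rhs => rw [← bm_split]
    ext i j
    simp only [Matrix.add_apply]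
    generalize (Rmᵀ * Matrix.J (Fin 3) (ZMod 2) * Rm) i j = a
    generalize Matrix.vecMulVec (vec 64) (vec 84) i j = b
    generalize Matrix.vecMulVec (vec 84) (vec 64) i j = c
    revert a b c; decide
  rw [psiM, show (Rm * mat e.1 * Pm)ᵀ * Matrix.J (Fin 3) (ZMod 2) * (Rm * mat e.1 * Pm) =
      (mat e.1 * Pm)ᵀ * (Rmᵀ * Matrix.J (Fin 3) (ZMod 2) * Rm) * (mat e.1 * Pm) by
    simp only [Matrix.transpose_mul, Matrix.mul_assoc]]
  rw [h, Matrix.mul_add, Matrix.mul_add, Matrix.add_mul, Matrix.add_mul, Matrix.mul_vecMulVec,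
    Matrix.mul_vecMulVec, Matrix.vecMulVec_mul, Matrix.vecMulVec_mul, mu_MP, vmv_zero,
    Matrix.mulVec_transpose, mu_MP, Matrix.zero_vecMulVec, add_zero, add_zero,
    show (mat e.1 * Pm)ᵀ * Bm * (mat e.1 * Pm) = Pmᵀ * ((mat e.1)ᵀ * Bm * mat e.1) * Pm by
      simp only [Matrix.transpose_mul, Matrix.mul_assoc], bm_iso, bm_P]

/-- the homomorphism to `Sp6(2)` -/
noncomputable def psi : ↥stabV →* Matrix.symplecticGroup (Fin 3) (ZMod 2) :=
  MonoidHom.mk' (fun e => ⟨psiM e, psiM_symp e⟩) fun e f => Subtype.ext (psiM_mul e f)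

theorem S0_mem : S 0 ∈ stabV := by
  show mat (S 0) *ᵥ vec 69 = vec 69
  rw [mat, acts_S 0]
  exact congrArg vec (by decide +kernel)

theorem eq_of_images {e f : ↥stabV} (hP : mat e.1 * Pm = mat f.1 * Pm)
    (hz : mat e.1 *ᵥ vec 4 = mat f.1 *ᵥ vec 4) : e = f := by
  refine Subtype.ext (Subtype.ext (Units.ext ?_))
  show mat e.1 = mat f.1
  have h : ∀ g : ↥stabV, mat g.1 = mat g.1 * Pm * Rm + Matrix.vecMulVec (vec 69) (vec 64) +
      Matrix.vecMulVec (mat g.1 *ᵥ vec 4) (vec 84) := fun g => by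
    conv_lhs => rw [← Matrix.mul_one (mat g.1), ← split_one, Matrix.mul_add, Matrix.mul_add,
      Matrix.mul_vecMulVec, Matrix.mul_vecMulVec, g.2, ← Matrix.mul_assoc]
  rw [h e, h f, hP, hz]

theorem psi_ker {e : ↥stabV} (he : psi e = 1) : e = 1 ∨ e = ⟨S 0, S0_mem⟩ := by
  have he' : psiM e = 1 := congrArg Subtype.val he
  have hP := PR_MP e
  rw [he', Matrix.mul_one] at hP
  have hlam : vec 64 ᵥ* (mat e.1 * Pm) = 0 := by
    funext i
    refine col_check i _ ?_
    have hcol : mat e.1 *ᵥ vec (pCode i) = vec (pCode i) + (vec 64 ᵥ* (mat e.1 * Pm)) i • vec 69 := by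
      funext j
      have := congrArg (fun M : Matrix J K6 (ZMod 2) => M j i) hP
      simp only [Matrix.add_apply, Matrix.vecMulVec_apply] at this
      show (mat e.1 * Pm) j i = _
      rw [Pi.add_apply, Pi.smul_apply, smul_eq_mul]
      generalize (mat e.1 * Pm) j i = a at this ⊢
      rw [show Pm j i = vec (pCode i) j from rfl] at this
      generalize vec (pCode i) j = b at this ⊢
      generalize vec 69 j = c at this ⊢
      generalize (vec 64 ᵥ* (mat e.1 * Pm)) i = d at this ⊢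
      revert a b c d; decide
    rw [← hcol, q_iso]
  rw [hlam, vmv_zero, add_zero] at hP
  obtain ⟨cz, hcz, hcze⟩ := vec_surjective (mat e.1 *ᵥ vec 4)
  have hadd : ∀ c, mat e.1 *ᵥ vec c = vec c → qb (cz ^^^ c) = qb (4 ^^^ c) := fun c hc => by
    have h1 := q_iso e.1 (vec 4 + vec c)
    rw [Matrix.mulVec_add, hc, ← hcze, ← vec_xor, ← vec_xor, q_vec, q_vec] at h1
    revert h1; cases qb (cz ^^^ c) <;> cases qb (4 ^^^ c) <;> simp [b2z]
  have hPi : ∀ i, mat e.1 *ᵥ vec (pCode i) = vec (pCode i) := fun i => by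
    funext j
    show (mat e.1 * Pm) j i = _
    rw [← hP]; rfl
  have hqz : qb cz = false := by
    have h1 := q_iso e.1 (vec 4)
    rw [← hcze, q_vec, q_vec, show qb 4 = false by decide +kernel] at h1
    revert h1; cases qb cz <;> simp [b2z]
  have h := (Model.allBelow_iff _ _).1 z_check cz hcz
  simp only [hqz, Bool.false_or, Bool.or_eq_true, Bool.not_eq_true', beq_eq_false_iff_ne, ne_eq] at h
  rcases h with ((h | h) | h) | h
  · left
    refine eq_of_images ?_ ?_
    · rw [show mat (1 : ↥stabV).1 = 1 by simp [mat], Matrix.one_mul, ← hP]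
    · rw [show mat (1 : ↥stabV).1 = 1 by simp [mat], Matrix.one_mulVec, ← hcze, Nat.eq_of_beq_eq_true h]
  · right
    refine eq_of_images ?_ ?_
    · rw [← hP]
      ext j i
      show _ = (mat (S 0) *ᵥ vec (pCode i)) j
      rw [mat, acts_S 0]
      show vec (pCode i) j = _
      congr 2
      revert i; decide +kernel
    · show mat e.1 *ᵥ vec 4 = mat (S 0) *ᵥ vec 4
      rw [← hcze, mat, acts_S 0, Nat.eq_of_beq_eq_true h]
      exact congrArg vec (by decide +kernel)
  · exact absurd (hadd 69 e.2) h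
  · exfalso
    rw [List.all_eq_false] at h
    obtain ⟨p, hp, hpe⟩ := h
    have : ∀ p ∈ [1, 2, 8, 20, 32, 128], ∃ i, pCode i = p := by decide +kernel
    obtain ⟨i, rfl⟩ := this p hp
    exact hpe (by simpa using hadd _ (hPi i))

theorem map_stabV : stabV.map liftHom = I1 := by
  rw [I1_eq]
  ext g
  constructor
  · rintro ⟨e, he, rfl⟩
    exact ⟨⟨e, rfl⟩, (lift_cpt_eq e (by norm_num) alpha_facts.1 (by norm_num) alpha_facts.1).2 he⟩
  · rintro ⟨⟨e, rfl⟩, h⟩
    exact ⟨e, (lift_cpt_eq e (by norm_num) alpha_facts.1 (by norm_num) alpha_facts.1).1 h, rfl⟩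

theorem card_stabV : Nat.card ↥stabV = 2903040 := by
  rw [← card_I1, ← map_stabV, Nat.card_congr (stabV.equivMapOfInjective liftHom liftHom_injective).toEquiv]

theorem nonempty_stabV : Nonempty (↥stabV ≃* Multiplicative (ZMod 2) × Cfsg.PSp 3 (ZMod 2)) := by
  haveI : Fact (Nat.Prime 2) := ⟨Nat.prime_two⟩
  have hz : Subgroup.center (Matrix.symplecticGroup (Fin 3) (ZMod 2)) = ⊥ := by
    refine (Subgroup.eq_bot_iff_forall _).2 fun g hg => Subtype.ext ?_
    rcases CfsgLib.Classical.Symp.mem_center_iff.1 hg with h | h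
    · exact h
    · rw [h]
      ext i j
      rw [Matrix.neg_apply, CharTwo.neg_eq]
      rfl
  let eS := (QuotientGroup.quotientMulEquivOfEq hz).trans QuotientGroup.quotientBot
  have hidx : (Cfsg.Omega (ZMod 2) Q2).index = 2 := by
    have h := (Cfsg.Omega (ZMod 2) Q2).card_mul_index
    rw [card_G8, card_O2] at h
    omega
  let e2 : ↥O2 ⧸ Cfsg.Omega (ZMod 2) Q2 ≃* Multiplicative (ZMod 2) :=
    mulEquivOfPrimeCardEq (p := 2) ((Subgroup.index_eq_card _).symm.trans hidx)
      (by rw [Nat.card_congr Multiplicative.toAdd, Nat.card_zmod])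
  let chi : ↥stabV →* Multiplicative (ZMod 2) :=
    (e2.toMonoidHom.comp (QuotientGroup.mk' _)).comp stabV.subtype
  let f : ↥stabV →* Multiplicative (ZMod 2) × Cfsg.PSp 3 (ZMod 2) := chi.prod (eS.symm.toMonoidHom.comp psi)
  have hinj : Function.Injective f := by
    rw [← MonoidHom.ker_eq_bot_iff, eq_bot_iff]
    intro e he
    have h1 : chi e = 1 := congrArg Prod.fst (MonoidHom.mem_ker.1 he)
    have h2 : psi e = 1 := eS.symm.injective ((congrArg Prod.snd (MonoidHom.mem_ker.1 he)).trans (map_one _).symm)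
    rcases psi_ker h2 with rfl | rfl
    · exact rfl
    · exfalso
      have h3 : QuotientGroup.mk' (Cfsg.Omega (ZMod 2) Q2) (S 0) = 1 :=
        e2.injective (h1.trans (map_one _).symm)
      rw [QuotientGroup.mk'_apply, QuotientGroup.eq_one_iff] at h3
      have h7 : S 7 = S 0 * (S 0 * S 7) := by rw [← mul_assoc, S_mul_self, one_mul]
      have hm : S 0 * S 7 = (Ro 0)⁻¹ := by
        rw [Ro, mul_inv_rev, S_inv, S_inv]; rfl
      exact S_not_mem (h7 ▸ mul_mem h3 (hm ▸ inv_mem (Ro_mem 0)))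
  haveI : Finite ↥stabV := Nat.finite_of_card_ne_zero (by rw [card_stabV]; norm_num)
  haveI : Finite (Cfsg.PSp 3 (ZMod 2)) := Finite.of_equiv _ eS.symm.toEquiv
  refine ⟨MulEquiv.ofBijective f ((Nat.bijective_iff_injective_and_card _).2 ⟨hinj, ?_⟩)⟩
  rw [card_stabV, Nat.card_prod, Nat.card_congr Multiplicative.toAdd, Nat.card_zmod,
    Nat.card_congr eS.toEquiv, CfsgLib.Classical.Symp.card_symplecticGroup]
  simp [Finset.prod_range_succ]

theorem rep_one_witness : allBelow (fun p => !(Nat.beq (repFun 1 p) p) || Nat.beq p (mpoint 0) ||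
    (allBelow (fun c => !(qb c && Nat.beq (Fi22Aut8.Data.maskPt c) p) ||
      (let w := FixData.words1.getD c []
       (List.range 256).any fun d => qb d && Nat.beq (repFun 1 (Fi22Aut8.Data.maskPt d)) (Fi22Aut8.Data.maskPt d) &&
        !(Nat.beq (ev (w ++ [0] ++ w.reverse) (Fi22Aut8.Data.maskPt d)) (Fi22Aut8.Data.maskPt d)))) 256 &&
      (List.range 256).any (fun c => qb c && Nat.beq (Fi22Aut8.Data.maskPt c) p) &&
      Nat.beq (mt 0 p) p)) 3510 = true := by
  decide +kernel

theorem rep_one_fix_zero : repFun 1 (mpoint 0) = mpoint 0 := by decide +kernel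

theorem commute_rep_one {g : Cfsg.Spor.Fi22}
    (h : outerPerm * pi (mem9 0) * pi g = pi g * (outerPerm * pi (mem9 0))) : g ∈ stabPt (cpt 69) := by
  set P := outerPerm * pi (mem9 0) with hP
  have hval : ∀ q : Pt, ((P q : Pt) : ℕ) = repFun 1 q := fun q => by
    show Fi22Out.Data.outer (pi (mem9 0) q : Pt) = _
    rw [pi_mem9 (by norm_num)]; rfl
  have hPa : P (cpt 69) = cpt 69 := Fin.ext (by
    rw [hval, cpt_zero]; exact rep_one_fix_zero)
  have hPg : P (pi g (cpt 69)) = pi g (cpt 69) := by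
    rw [← Equiv.Perm.mul_apply, h, Equiv.Perm.mul_apply, hPa]
  by_contra hne
  have hw := (Model.allBelow_iff _ _).1 rep_one_witness (pi g (cpt 69) : Pt) (Fin.is_lt _)
  rw [← hval, hPg] at hw
  simp only [Nat.beq_refl, Bool.not_true, Bool.false_or, Bool.or_eq_true, Bool.and_eq_true,
    Model.allBelow_iff, List.any_eq_true, List.mem_range, Bool.not_eq_true'] at hw
  rcases hw with hw | ⟨⟨hall, c, hc, hcq, hcp⟩, -⟩
  · refine hne (Fin.ext ?_)
    rw [cpt_zero, pt_val]
    exact Nat.eq_of_beq_eq_true hw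
  have hp : pi g (cpt 69) = cpt c := Fin.ext (by rw [cpt_val hc hcq, Nat.eq_of_beq_eq_true hcp])
  have hq := hall c hc
  rw [hcq, Nat.eq_of_beq_eq_true hcp, Nat.beq_refl] at hq
  simp only [Bool.and_self, Bool.not_true, false_or, Bool.false_eq_true, Bool.true_eq_false] at hq
  obtain ⟨d, hd, ⟨hdq, hdfix⟩, hdne⟩ := hq
  have hwd := (Model.allBelow_iff _ _).1 word_check c hc
  simp only [hcq, Bool.not_true, Bool.false_or, Bool.and_eq_true, List.all_eq_true, Nat.blt, Nat.ble_eq] at hwd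
  have h9 : ∀ j ∈ FixData.words1.getD c [], j < 9 := fun j hj => (hwd.1.1 j hj).trans (by norm_num)
  have h9' : ∀ j ∈ FixData.words1.getD c [] ++ [0] ++ (FixData.words1.getD c []).reverse, j < 9 := by
    intro j hj
    simp only [List.mem_append, List.mem_singleton, List.mem_reverse] at hj
    rcases hj with (hj | rfl) | hj
    · exact h9 j hj
    · norm_num
    · exact h9 j hj
  have htr : tran (cpt c) = uw (FixData.words1.getD c [] ++ [0] ++ (FixData.words1.getD c []).reverse) := by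
    rw [uw_append, uw_append, uw_cons, uw_nil, mul_one, uw_reverse, mem9_zero_eq, tran_conj]
    refine congrArg tran (pi_uw_cpt h9 (by norm_num) alpha_facts.1 hc hcq ?_).symm
    rw [alpha_facts.2.2.1]; exact Nat.eq_of_beq_eq_true hwd.1.2
  -- the member of `d` is fixed, so its preimage is fixed too and commutes with the first member
  set q0 := (pi g)⁻¹ (cpt d) with hq0
  have hPd : P (cpt d) = cpt d := Fin.ext (by
    rw [hval, cpt_val hd hdq]; exact Nat.eq_of_beq_eq_true hdfix)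
  have hgq : pi g q0 = cpt d := by rw [hq0]; simp
  have hPq : P q0 = q0 := by
    refine (pi g).injective ?_
    rw [← Equiv.Perm.mul_apply, ← h, Equiv.Perm.mul_apply, hgq, hPd]
  have hadj : pi (mem9 0) q0 = q0 := by
    have hw2 := (Model.allBelow_iff _ _).1 rep_one_witness (q0 : ℕ) (Fin.is_lt _)
    rw [← hval, hPq] at hw2
    simp only [Nat.beq_refl, Bool.not_true, Bool.false_or, Bool.or_eq_true, Bool.and_eq_true] at hw2
    rcases hw2 with hw2 | ⟨-, hw2⟩
    · have hq : q0 = cpt 69 := Fin.ext (by rw [cpt_zero, pt_val]; exact Nat.eq_of_beq_eq_true hw2)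
      rw [hq, mem9_zero_eq, ← Fi22Aut8.commute_tran_iff]
    · exact Fin.ext (by rw [pi_mem9 (by norm_num)]; exact Nat.eq_of_beq_eq_true hw2)
  have hfix : pi (tran (cpt c)) (cpt d) = cpt d := by
    rw [← hp, ← tran_conj, map_mul, map_mul, map_inv, ← mem9_zero_eq, Equiv.Perm.mul_apply,
      Equiv.Perm.mul_apply, ← hq0, hadj, hgq]
  have hv := congrArg Fin.val hfix
  rw [htr, pi_uw h9', cpt_val hd hdq] at hv
  rw [hv, Nat.beq_refl] at hdne
  exact Bool.noConfusion hdne

end CfsgLib.Fi22Invol25
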