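import Cfsg.Agent.Fi22Invol25.AutPerm
import Cfsg.Agent.Fi22Aut8.FiveData

/-!
The fixed group of the diagram symmetry is the group of the nine members, and its elements fixing
the first member lie in the isometry group.
-/

set_option autoImplicit false
set_option maxRecDepth 100000

namespace CfsgLib.Fi22Invol25

open CfsgLib.CosetEnum CfsgLib.CosetEnum.Fi22 CfsgLib.Fi22Out CfsgLib.Fi22Aut8 CfsgLib.O8Mult

theorem cls_fixed_check : allBelow (fun k =>
    Nat.beq (Fi22Out.Data.outer k) k == (cls k).blt 3) 3510 = true := by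
  decide +kernel

theorem cls_member_check : allBelow (fun j => allBelow (fun k => !((cls k).blt 3) ||
    ((cls (mt j k)).blt 3 && Nat.beq (cls (mt j k)) (cls (mt j (root (cls k)))))) 3510) 9 = true := by
  decide +kernel

theorem root_cls {r : ℕ} (hr : r < 4) : root r < 3510 ∧ cls (root r) = r := by
  have := (Model.allBelow_iff _ _).1 roots_eq.2 r hr
  simp only [Bool.and_eq_true, Nat.blt, Nat.ble_eq] at this
  exact ⟨this.1.1, Nat.eq_of_beq_eq_true this.1.2⟩

theorem cls_lt_iff (k : Pt) : cls k < 3 ↔ outerPerm k = k := by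
  have h := (Model.allBelow_iff _ _).1 cls_fixed_check k k.2
  rw [beq_iff_eq] at h
  constructor
  · intro hc
    refine Fin.ext (Nat.eq_of_beq_eq_true (h.trans ?_))
    simpa [Nat.blt, Nat.ble_eq] using hc
  · intro hf
    rw [show Fi22Out.Data.outer k = k from congrArg Fin.val hf, Nat.beq_refl] at h
    simpa [Nat.blt, Nat.ble_eq] using h.symm

theorem fixed_iff {g : Cfsg.Spor.Fi22} : sigma22 g = g ↔ outerPerm * pi g = pi g * outerPerm := by
  rw [← pi_injective.eq_iff, sigma22_apply, pi_outerHom, MulAut.conj_apply, mul_inv_eq_iff_eq_mul]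

theorem sigma22_mem9 {j : ℕ} (hj : j < 9) : sigma22 (mem9 j) = mem9 j :=
  fixed_iff.2 (Equiv.ext fun k => by rw [Equiv.Perm.mul_apply, Equiv.Perm.mul_apply, outerPerm_commute hj])

theorem sigma22_of_mem {g : Cfsg.Spor.Fi22} (hg : g ∈ I9) : sigma22 g = g := by
  induction hg using Subgroup.closure_induction with
  | mem x hx => obtain ⟨j, hj, rfl⟩ := hx; exact sigma22_mem9 hj
  | one => exact map_one _
  | mul x y _ _ hx hy => rw [map_mul, hx, hy]
  | inv x _ hx => rw [map_inv, hx]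

theorem cls_perm {y : Cfsg.Spor.Fi22} (hy : y ∈ I9) : ∀ k : Pt, cls k < 3 →
    cls (pi y k : Pt) < 3 ∧ ∀ k' : Pt, cls k' = cls k → cls (pi y k' : Pt) = cls (pi y k : Pt) := by
  have hgen : ∀ j < 9, ∀ k : Pt, cls k < 3 → cls (pi (mem9 j) k : Pt) < 3 ∧
      ∀ k' : Pt, cls k' = cls k → cls (pi (mem9 j) k' : Pt) = cls (pi (mem9 j) k : Pt) := by
    intro j hj k hk
    have key : ∀ m : Pt, cls m < 3 → cls (mt j m) < 3 ∧ cls (mt j m) = cls (mt j (root (cls m))) := by
      intro m hm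
      have h := (Model.allBelow_iff _ _).1 ((Model.allBelow_iff _ _).1 cls_member_check j hj) m m.2
      simp only [Bool.or_eq_true, Bool.and_eq_true, Bool.not_eq_true', Nat.blt] at h
      rcases h with h | ⟨h1, h2⟩
      · rw [Nat.ble_eq_true_of_le hm] at h; exact Bool.noConfusion h
      · exact ⟨Nat.le_of_ble_eq_true h1, Nat.eq_of_beq_eq_true h2⟩
    refine ⟨by rw [pi_mem9 hj]; exact (key k hk).1, fun k' hk' => ?_⟩
    rw [pi_mem9 hj, pi_mem9 hj, (key k hk).2, (key k' (hk' ▸ hk)).2, hk']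
  induction hy using Subgroup.closure_induction_left with
  | one => intro k hk; exact ⟨by simpa using hk, fun k' h => by simpa using h⟩
  | mul_left x hx z _ ih =>
    obtain ⟨j, hj, rfl⟩ := hx
    intro k hk
    rw [map_mul, Equiv.Perm.mul_apply]
    obtain ⟨h1, h2⟩ := ih k hk
    refine ⟨(hgen j hj _ h1).1, fun k' hk' => ?_⟩
    rw [Equiv.Perm.mul_apply]
    exact (hgen j hj _ h1).2 _ (h2 k' hk')
  | inv_mul_cancel x hx z _ ih =>
    obtain ⟨j, hj, rfl⟩ := hx
    intro k hk
    rw [mem9_inv, map_mul, Equiv.Perm.mul_apply]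
    obtain ⟨h1, h2⟩ := ih k hk
    refine ⟨(hgen j hj _ h1).1, fun k' hk' => ?_⟩
    rw [Equiv.Perm.mul_apply]
    exact (hgen j hj _ h1).2 _ (h2 k' hk')

/-- the root of a class as a point -/
noncomputable def rootPt (r : Fin 3) : Pt := pt (root r) (root_cls (by omega)).1

theorem cls_rootPt (r : Fin 3) : cls (rootPt r : Pt) = r := (root_cls (by omega)).2

theorem classMap_spec (y : ↥I9) (k : Pt) (r : Fin 3) (h : cls k = r) :
    cls (pi (y : Cfsg.Spor.Fi22) k : Pt) = cls (pi (y : Cfsg.Spor.Fi22) (rootPt r) : Pt) :=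
  (cls_perm y.2 (rootPt r) (by rw [cls_rootPt]; exact r.2)).2 k (by rw [cls_rootPt, h])

/-- the class of the image of a class -/
noncomputable def classMap (y : ↥I9) (r : Fin 3) : Fin 3 :=
  ⟨cls (pi (y : Cfsg.Spor.Fi22) (rootPt r) : Pt), (cls_perm y.2 _ (by rw [cls_rootPt]; exact r.2)).1⟩

theorem classMap_mul (y z : ↥I9) (r : Fin 3) : classMap (y * z) r = classMap y (classMap z r) := by
  refine Fin.ext ?_
  show cls (pi ((y : Cfsg.Spor.Fi22) * z) (rootPt r) : Pt) = _
  rw [map_mul, Equiv.Perm.mul_apply]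
  exact classMap_spec y _ (classMap z r) rfl

theorem classMap_one (r : Fin 3) : classMap 1 r = r := Fin.ext (by
  show cls (pi ((1 : ↥I9) : Cfsg.Spor.Fi22) (rootPt r) : Pt) = _
  rw [Subgroup.coe_one, map_one, Equiv.Perm.one_apply, cls_rootPt])

/-- the action of the nine members on the three classes -/
noncomputable def rho : ↥I9 →* Equiv.Perm (Fin 3) where
  toFun y := ⟨classMap y, classMap y⁻¹, fun r => by rw [← classMap_mul, inv_mul_cancel, classMap_one],
    fun r => by rw [← classMap_mul, mul_inv_cancel, classMap_one]⟩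
  map_one' := Equiv.ext classMap_one
  map_mul' y z := Equiv.ext (classMap_mul y z)

theorem rho_apply (y : ↥I9) (r : Fin 3) :
    ((rho y r : Fin 3) : ℕ) = cls (pi (y : Cfsg.Spor.Fi22) (rootPt r) : Pt) := rfl

theorem rho_even {y : ↥I9} (hy : (y : Cfsg.Spor.Fi22) ∈ Even8) : rho y = 1 :=
  Equiv.ext fun r => Fin.ext (by rw [rho_apply, class_invariant hy, cls_rootPt]; rfl)

theorem six_word_lt (s : Fin 6) : ∀ j ∈ sixWords.getD s [], j < 9 := by
  have h := (Model.allBelow_iff _ _).1 six_check s s.2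
  simp only [Bool.and_eq_true, List.all_eq_true, Nat.blt, Nat.ble_eq] at h
  exact h.1

theorem rho_six_injective :
    Function.Injective fun s : Fin 6 => rho ⟨uw (sixWords.getD s []), uw_mem (six_word_lt s)⟩ := by
  intro s t hst
  have h1 := (Model.allBelow_iff _ _).1 six_check s s.2
  rw [Bool.and_eq_true, Model.allBelow_iff] at h1
  have h2 := h1.2 t t.2
  rw [Bool.or_eq_true] at h2
  refine Fin.ext (Nat.eq_of_beq_eq_true (h2.resolve_right fun h3 => ?_))
  rw [Bool.not_eq_true', ← Bool.not_eq_true] at h3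
  refine h3 ((Model.allBelow_iff _ _).2 fun r hr => ?_)
  have e := congrArg (fun p : Equiv.Perm (Fin 3) => ((p ⟨r, hr⟩ : Fin 3) : ℕ)) hst
  simp only [rho_apply, rootPt, pi_uw (six_word_lt s), pi_uw (six_word_lt t), pt_val] at e
  rw [e]; exact Nat.beq_refl _

theorem even_of_rho {y : ↥I9} (hy : rho y = 1) : (y : Cfsg.Spor.Fi22) ∈ Even8 := by
  haveI := finite_fi22
  have hle : Even8.subgroupOf I9 ≤ rho.ker := fun z hz => MonoidHom.mem_ker.2 (rho_even hz)
  have hsurj : Function.Surjective rho := by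
    intro p
    have hb : Function.Bijective fun s : Fin 6 => rho ⟨uw (sixWords.getD s []), uw_mem (six_word_lt s)⟩ := by
      refine (Fintype.bijective_iff_injective_and_card _).2 ⟨rho_six_injective, ?_⟩
      rw [Fintype.card_fin, Fintype.card_perm, Fintype.card_fin]; rfl
    obtain ⟨s, hs⟩ := hb.2 p
    exact ⟨_, hs⟩
  have hk : Nat.card ↥rho.ker * 6 = 1045094400 := by
    rw [← card_I9, ← rho.ker.card_mul_index, Subgroup.index_ker, MonoidHom.range_eq_top.2 hsurj,
      Subgroup.card_top, Nat.card_perm, Nat.card_eq_fintype_card (α := Fin 3), Fintype.card_fin]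
    rfl
  have he : Even8.subgroupOf I9 = rho.ker := by
    refine Subgroup.eq_of_le_of_card_ge hle ?_
    rw [Nat.card_congr (Subgroup.subgroupOfEquivOfLe even_le).toEquiv, card_even]
    omega
  exact Subgroup.mem_subgroupOf.1 (he ▸ MonoidHom.mem_ker.2 hy)

theorem tran_mem_of_fixed {k : Pt} (hk : outerPerm k = k) : tran k ∈ I9 :=
  tran_mem_I9 ((cls_lt_iff k).2 hk)

theorem conj_mem_of_fixed {g : Cfsg.Spor.Fi22} (hg : sigma22 g = g) {y : Cfsg.Spor.Fi22} (hy : y ∈ I9) :
    g * y * g⁻¹ ∈ I9 := by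
  induction hy using Subgroup.closure_induction with
  | mem x hx =>
    obtain ⟨j, hj, rfl⟩ := hx
    simp only [Set.mem_Iio] at hj
    rw [mem9_eq_tran hj, tran_conj]
    refine tran_mem_of_fixed ?_
    have hp : outerPerm (pt (mpoint j) (mpoint_lt hj)) = pt (mpoint j) (mpoint_lt hj) := by
      refine tran_injective ?_
      rw [← permOf_sigma, tran_permOf, ← mem9_eq_tran hj, sigma22_mem9 hj]
    rw [← Equiv.Perm.mul_apply, fixed_iff.1 hg, Equiv.Perm.mul_apply, hp]
  | one => simp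
  | mul a b _ _ ha hb =>
    rw [show g * (a * b) * g⁻¹ = g * a * g⁻¹ * (g * b * g⁻¹) by group]
    exact mul_mem ha hb
  | inv a _ ha =>
    rw [show g * a⁻¹ * g⁻¹ = (g * a * g⁻¹)⁻¹ by group]
    exact inv_mem ha

theorem fixed_mem {g : Cfsg.Spor.Fi22} (hg : sigma22 g = g) : g ∈ I9 := by
  haveI := finite_fi22
  let f : ↥(Cfsg.Omega (ZMod 2) Q2) →* Equiv.Perm (Fin 3) :=
    rho.comp (((MulAut.conj g).toMonoidHom.comp ((Even8.subtype).comp evenEquiv.toMonoidHom)).codRestrict I9
      fun z => conj_mem_of_fixed hg (even_le (evenEquiv z).2))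
  have hcom : ∀ (S : Subgroup (Equiv.Perm (Fin 3))), (∀ a b, f a * f b * (f a)⁻¹ * (f b)⁻¹ ∈ S) →
      ∀ z, f z ∈ S := by
    intro S hS z
    have hz : z ∈ commutator G8 := commutator_G8 ▸ Subgroup.mem_top z
    rw [commutator_def] at hz
    induction hz using Subgroup.closure_induction with
    | mem x hx =>
      obtain ⟨a, -, b, -, rfl⟩ := hx
      rw [commutatorElement_def, map_mul, map_mul, map_mul, map_inv, map_inv]
      exact hS a b
    | one => rw [map_one]; exact one_mem _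
    | mul x y _ _ hx hy => rw [map_mul]; exact mul_mem hx hy
    | inv x _ hx => rw [map_inv]; exact inv_mem hx
  have hA : ∀ z, Equiv.Perm.sign (f z) = 1 := fun z =>
    MonoidHom.mem_ker.1 (hcom Equiv.Perm.sign.ker (fun a b => by
      rcases Int.units_eq_one_or (Equiv.Perm.sign (f a)) with h | h <;>
        rcases Int.units_eq_one_or (Equiv.Perm.sign (f b)) with h' | h' <;> simp [MonoidHom.mem_ker, h, h']) z)
  have h3 : ∀ a b : Equiv.Perm (Fin 3), Equiv.Perm.sign a = 1 → Equiv.Perm.sign b = 1 → a * b = b * a := by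
    decide
  have hf : ∀ z, f z = 1 := fun z => Subgroup.mem_bot.1 (hcom ⊥ (fun a b => Subgroup.mem_bot.2 (by
    rw [h3 _ _ (hA a) (hA b)]; group)) z)
  have hn : ∀ y ∈ Even8, g * y * g⁻¹ ∈ Even8 := by
    intro y hy
    have := even_of_rho (hf (evenEquiv.symm ⟨y, hy⟩))
    simpa using this
  have heq : Even8.map (MulAut.conj g).toMonoidHom = Even8 :=
    Subgroup.eq_of_le_of_card_ge (by rintro _ ⟨y, hy, rfl⟩; exact hn y hy)
      (le_of_eq (Nat.card_congr (Subgroup.equivMapOfInjective _ _ (MulEquiv.injective _)).toEquiv))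
  have hN : g ∈ Subgroup.normalizer (Even8 : Set Cfsg.Spor.Fi22) := by
    refine Subgroup.mem_normalizer_iff.2 fun y => ⟨hn y, fun hy => ?_⟩
    rw [← heq] at hy
    obtain ⟨z, hz, hze⟩ := hy
    replace hze : g * z * g⁻¹ = g * y * g⁻¹ := hze
    rwa [← mul_left_cancel (mul_right_cancel hze)]
  obtain ⟨h, hh⟩ := autHom_bijective.2 (Even8.normalizerMonoidHom ⟨g, hN⟩)
  have hone : (h : Cfsg.Spor.Fi22)⁻¹ * g = 1 := by
    refine eq_one_of_commute fun i hi => ?_
    have e := congrArg Subtype.val (congrArg (fun a : MulAut ↥Even8 =>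
      a ⟨evenGen i, evenGen_mem (by omega)⟩) hh)
    replace e : (h : Cfsg.Spor.Fi22) * evenGen i * (h : Cfsg.Spor.Fi22)⁻¹ = g * evenGen i * g⁻¹ := e
    calc (h : Cfsg.Spor.Fi22)⁻¹ * g * evenGen i
        = (h : Cfsg.Spor.Fi22)⁻¹ * (g * evenGen i * g⁻¹) * g := by group
      _ = evenGen i * ((h : Cfsg.Spor.Fi22)⁻¹ * g) := by rw [← e]; group
  rw [← inv_mul_eq_one.1 hone]
  exact h.2

theorem fixed_sigma_iff {g : Cfsg.Spor.Fi22} : sigma22 g = g ↔ g ∈ I9 := ⟨fixed_mem, sigma22_of_mem⟩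

theorem mem9_zero_swaps : allBelow (fun r => Nat.beq (cls (mt 0 (root r))) (([0, 2, 1] : List ℕ).getD r 0)) 3 = true := by
  decide +kernel

theorem mem_lift_range {y : Cfsg.Spor.Fi22} (hy : y ∈ I9) (hfix : pi y (pt (mpoint 0) (mpoint_lt (by norm_num))) =
    pt (mpoint 0) (mpoint_lt (by norm_num))) : y ∈ liftHom.range := by
  have hle : Even8 ≤ liftHom.range := by
    rw [← map_omega]; rintro _ ⟨z, -, rfl⟩; exact ⟨z, rfl⟩
  have h0 : mem9 0 ∈ liftHom.range := ⟨S 0, liftHom_S 0⟩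
  have hp : cls (mpoint 0) = 0 := by decide +kernel
  have hz : rho ⟨y, hy⟩ 0 = 0 := by
    refine Fin.ext ?_
    rw [rho_apply, ← classMap_spec ⟨y, hy⟩ (pt (mpoint 0) (mpoint_lt (by norm_num))) 0
      (by rw [pt_val, hp]; rfl), hfix, pt_val, hp]
    rfl
  have hsw : rho ⟨mem9 0, mem9_mem (by norm_num)⟩ = Equiv.swap 1 2 := by
    refine Equiv.ext fun r => Fin.ext ?_
    rw [rho_apply, rootPt, pi_mem9 (by norm_num), pt_val,
      Nat.eq_of_beq_eq_true ((Model.allBelow_iff _ _).1 mem9_zero_swaps r r.2)]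
    fin_cases r <;> rfl
  have hcases : ∀ p : Equiv.Perm (Fin 3), p 0 = 0 → p = 1 ∨ p = Equiv.swap 1 2 := by decide
  rcases hcases _ hz with h | h
  · exact hle (even_of_rho h)
  · have := hle (even_of_rho (y := ⟨mem9 0, mem9_mem (by norm_num)⟩ * ⟨y, hy⟩)
      (by rw [map_mul, h, hsw, Equiv.swap_mul_self]))
    have h2 := mul_mem h0 this
    rwa [show mem9 0 * (((⟨mem9 0, mem9_mem (by norm_num)⟩ : ↥I9) * ⟨y, hy⟩ : ↥I9) : Cfsg.Spor.Fi22) = y by
      rw [Subgroup.coe_mul, ← mul_assoc, mem9_mul_self, one_mul]] at h2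

end CfsgLib.Fi22Invol25
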