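import Cfsg.Agent.Fi22Invol25.TwoChecks
import Cfsg.Agent.Classical.Orth.OrderStd
import Cfsg.Agent.Char2Forms.Basic
import Mathlib.GroupTheory.PGroup

/-!
The elliptic form in six dimensions over two elements on masks, and the absence of normal 2-subgroups
in its isometry group.
-/

set_option autoImplicit false
set_option maxRecDepth 100000

open scoped Matrix MatrixGroups

namespace CfsgLib.Fi22Invol25

open CfsgLib.CosetEnum CfsgLib.CosetEnum.Fi22 CfsgLib.O8Mult CfsgLib.Classical.Orth CfsgLib.OrthGeo Cfsg.Geo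

/-- index of the coordinates -/
abbrev I6 : Type := (Fin 2 ⊕ Fin 2) ⊕ Fin 2

/-- the elliptic form -/
abbrev Q6 : (I6 → ZMod 2) → ZMod 2 := Cfsg.quadFormMinus 2 (ZMod 2) 1 1

/-- its isometry group -/
abbrev O6 : Subgroup (GL I6 (ZMod 2)) := Cfsg.isometryGroup (ZMod 2) Q6

/-- position of a coordinate -/
def pos6 : I6 → ℕ
  | .inl (.inl k) => (k : ℕ)
  | .inl (.inr k) => (k : ℕ) + 2
  | .inr k => (k : ℕ) + 4

/-- the vector of a mask -/
def vec6 (c : ℕ) : I6 → ZMod 2 := fun j => b2z (c.testBit (pos6 j))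

/-- the matrix of the bilinear form -/
def Bm6 : Matrix I6 I6 (ZMod 2) := Matrix.of fun x y =>
  match x, y with
  | .inl (.inl k), .inl (.inr l) => if k = l then 1 else 0
  | .inl (.inr k), .inl (.inl l) => if k = l then 1 else 0
  | .inr k, .inr l => if k = l then 0 else 1
  | _, _ => 0

theorem vec6_xor (a b : ℕ) : vec6 (a ^^^ b) = vec6 a + vec6 b := by
  funext j
  simp only [vec6, Pi.add_apply, Nat.testBit_xor, b2z_bne]

theorem q6_vec (c : ℕ) : Q6 (vec6 c) = b2z (q6 c) := by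
  have key : ∀ a b : Bool, b2z (a && b) = b2z a * b2z b := by decide
  have sq : ∀ a : Bool, b2z a ^ 2 = b2z a := by decide
  simp only [q6, b2z_bne, key, Cfsg.quadFormMinus, Fin.sum_univ_two, vec6, pos6, sq, one_mul]
  norm_num
  try ring

theorem q6_add (x y : I6 → ZMod 2) : Q6 (x + y) = Q6 x + Q6 y + x ⬝ᵥ (Bm6 *ᵥ y) := by
  simp only [Q6, Cfsg.quadFormMinus, dotProduct, Matrix.mulVec, Bm6, Matrix.of_apply, Fintype.sum_sum_type,
    Fin.sum_univ_two, Pi.add_apply]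
  simp
  ring_nf
  try simp [show (2 : ZMod 2) = 0 from by decide]

theorem b6_vec (a b : ℕ) : vec6 a ⬝ᵥ (Bm6 *ᵥ vec6 b) = b2z (b6 a b) := by
  have h := q6_add (vec6 a) (vec6 b)
  rw [← vec6_xor, q6_vec, q6_vec, q6_vec] at h
  simp only [b6]
  revert h
  generalize vec6 a ⬝ᵥ (Bm6 *ᵥ vec6 b) = t
  generalize q6 (a ^^^ b) = p
  generalize q6 a = q
  generalize q6 b = r
  revert t p q r
  decide

theorem vec6_inj {a b : ℕ} (ha : a < 64) (hb : b < 64) (h : vec6 a = vec6 b) : a = b := by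
  refine Nat.eq_of_testBit_eq fun i => ?_
  have hb2 : ∀ x y : Bool, b2z x = b2z y → x = y := by decide
  by_cases hi : i < 6
  · have hp : ∀ k : Fin 6, ∃ j : I6, pos6 j = k := by decide
    obtain ⟨j, hj⟩ := hp ⟨i, hi⟩
    have := hb2 _ _ (congrFun h j)
    rwa [hj] at this
  · rw [Nat.testBit_lt_two_pow (lt_of_lt_of_le (ha.trans_eq (by norm_num : (64 : ℕ) = 2 ^ 6)) (Nat.pow_le_pow_right (by norm_num) (by omega))),
      Nat.testBit_lt_two_pow (lt_of_lt_of_le (hb.trans_eq (by norm_num : (64 : ℕ) = 2 ^ 6)) (Nat.pow_le_pow_right (by norm_num) (by omega)))]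

theorem vec6_surjective (v : I6 → ZMod 2) : ∃ c, c < 64 ∧ vec6 c = v := by
  have hinj : Function.Injective fun c : Fin 64 => vec6 c := fun a b h => Fin.ext (vec6_inj a.2 b.2 h)
  have hbij := (Fintype.bijective_iff_injective_and_card _).2 ⟨hinj, by simp⟩
  obtain ⟨c, hc⟩ := hbij.2 v
  exact ⟨c, c.2, hc⟩

/-- the six vectors of the basis, as columns -/
def Em : Matrix I6 I6 (ZMod 2) := Matrix.of fun x k => vec6 (c2 (TwoData.six.getD (pos6 k) 0)) x

/-- the coordinates in the basis -/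
def Rm6 : Matrix I6 I6 (ZMod 2) := Matrix.of fun k x => vec6 (TwoData.coRows.getD (pos6 k) 0) x

/-- the inverse of the Gram matrix -/
def Gi : Matrix I6 I6 (ZMod 2) := Matrix.of fun k x => vec6 (TwoData.gramRows.getD (pos6 k) 0) x

theorem Em_Rm : Em * Rm6 = 1 := by decide +kernel

theorem Gi_gram : Gi * (Emᵀ * Bm6 * Em) = 1 := by decide +kernel

theorem aniso_two : ∀ z₁ z₂ : ZMod 2, z₁ ^ 2 + 1 * z₁ * z₂ + 1 * z₂ ^ 2 = 0 → z₁ = 0 ∧ z₂ = 0 := by decide

theorem hQ6 : IsNondegenerateQuadraticForm Q6 := isNondegQF_quadFormMinus 2 1 1 aniso_two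

theorem q6_ne {c : ℕ} (h : q6 c = true) : Q6 (vec6 c) ≠ 0 := by rw [q6_vec, h]; decide

theorem refl6_mulVec {a : ℕ} (ha : q6 a = true) (c : ℕ) :
    (reflection hQ6 (q6_ne ha) : Matrix I6 I6 (ZMod 2)) *ᵥ vec6 c = vec6 (bif b6 a c then c ^^^ a else c) := by
  rw [reflection_mulVec hQ6, bform_apply, QuadraticMap.polar, ← vec6_xor, q6_vec, q6_vec, q6_vec, b6, ha]
  cases q6 (a ^^^ c) <;> cases q6 c <;>
    simp [b2z, vec6_xor, sub_eq_add_neg, ZModModule.neg_eq_self]

theorem card_O6 : Nat.card ↥O6 = 51840 := by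
  rw [card_isometryGroup_minus 1 1 aniso_two 2]
  simp [evenProd, Finset.prod_range_succ]

theorem link_check : allBelow (fun v => Nat.beq v 0 || TwoData.six.all (fun i =>
    (List.range 64).any fun x => q6 x && b6 x v && (Nat.beq x (c2 i) || b6 (c2 i) x))) 64 = true := by
  decide +kernel

theorem six_q : TwoData.six.all (fun i => q6 (c2 i)) = true := by decide +kernel

theorem six_mem (k : I6) : TwoData.six.getD (pos6 k) 0 ∈ TwoData.six := by
  have h : ∀ k : I6, TwoData.six.getD (pos6 k) 0 ∈ TwoData.six := by decide +kernel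
  exact h k

theorem mat6_ext {A B : Matrix I6 I6 (ZMod 2)}
    (h : ∀ k, A *ᵥ vec6 (c2 (TwoData.six.getD (pos6 k) 0)) = B *ᵥ vec6 (c2 (TwoData.six.getD (pos6 k) 0))) :
    A = B := by
  have hE : A * Em = B * Em := by
    ext x k
    exact congrFun (h k) x
  calc A = A * Em * Rm6 := by rw [Matrix.mul_assoc, Em_Rm, Matrix.mul_one]
    _ = B * Em * Rm6 := by rw [hE]
    _ = B := by rw [Matrix.mul_assoc, Em_Rm, Matrix.mul_one]

theorem normal_two_group_O6 {M : Subgroup ↥O6} (hn : M.Normal) (hM : IsPGroup 2 ↥M) : M = ⊥ := by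
  haveI : Fact (Nat.Prime 2) := ⟨Nat.prime_two⟩
  letI act : MulAction ↥M (I6 → ZMod 2) := MulAction.compHom (I6 → ZMod 2)
    ((CfsgLib.Char2Forms.glPerm).comp (O6.subtype.comp M.subtype))
  have hfix : ∀ (v : I6 → ZMod 2), v ∈ MulAction.fixedPoints ↥M (I6 → ZMod 2) ↔
      ∀ m : ↥M, ((m.1 : GL I6 (ZMod 2)) : Matrix I6 I6 (ZMod 2)) *ᵥ v = v := fun _ => Iff.rfl
  have h0 : (0 : I6 → ZMod 2) ∈ MulAction.fixedPoints ↥M (I6 → ZMod 2) := (hfix _).2 fun m => Matrix.mulVec_zero _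
  obtain ⟨v, hv, hv0⟩ := hM.exists_fixed_point_of_prime_dvd_card_of_fixed_point (I6 → ZMod 2)
    (by rw [Nat.card_eq_fintype_card]; simp) h0
  obtain ⟨cv, hcv, rfl⟩ := vec6_surjective v
  have hstep : ∀ {d x : ℕ}, vec6 d ∈ MulAction.fixedPoints ↥M (I6 → ZMod 2) → q6 x = true →
      b6 x d = true → vec6 x ∈ MulAction.fixedPoints ↥M (I6 → ZMod 2) := by
    intro d x hd hx hb
    rw [hfix] at hd ⊢
    intro m
    let T : ↥O6 := refl hQ6 (q6_ne hx)
    have hT : ∀ n : ↥M, ((n.1 : GL I6 (ZMod 2)) : Matrix I6 I6 (ZMod 2)) *ᵥ vec6 (d ^^^ x) = vec6 (d ^^^ x) :=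
        fun n => by
      have e : ((T : GL I6 (ZMod 2)) : Matrix I6 I6 (ZMod 2)) *ᵥ vec6 d = vec6 (d ^^^ x) := by
        have := refl6_mulVec hx d
        rw [hb] at this
        exact this
      have hk : T⁻¹ * n.1 * T ∈ M := by
        have := hn.conj_mem n.1 n.2 T⁻¹
        rwa [inv_inv] at this
      have h1 := hd ⟨_, hk⟩
      have h2 := congrArg (((T : GL I6 (ZMod 2)) : Matrix I6 I6 (ZMod 2)) *ᵥ ·) h1
      simp only [Matrix.mulVec_mulVec, ← Units.val_mul, ← Subgroup.coe_mul] at h2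
      rw [show T * (T⁻¹ * n.1 * T) = n.1 * T by group, Subgroup.coe_mul, Units.val_mul,
        ← Matrix.mulVec_mulVec, e] at h2
      exact h2
    have e2 : vec6 x = vec6 (d ^^^ x) + vec6 d := by
      rw [← vec6_xor]
      congr 1
      rw [Nat.xor_comm d x, Nat.xor_assoc, Nat.xor_self, Nat.xor_zero]
    rw [e2, Matrix.mulVec_add, hT m, hd m]
  have hcv0 : cv ≠ 0 := by
    rintro rfl
    refine hv0 ?_
    funext j
    simp [vec6, b2z]
  have hl := (Model.allBelow_iff _ _).1 link_check cv hcv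
  simp only [Bool.or_eq_true, List.all_eq_true, List.any_eq_true, Bool.and_eq_true, List.mem_range] at hl
  have hl' := hl.resolve_left fun h => hcv0 (Nat.eq_of_beq_eq_true h)
  refine (Subgroup.eq_bot_iff_forall _).2 fun m hm => Subtype.ext (Units.ext (mat6_ext fun k => ?_))
  obtain ⟨x, -, ⟨hx, hxv⟩, hxe⟩ := hl' _ (six_mem k)
  have h1 := hstep hv hx hxv
  have h2 : vec6 (c2 (TwoData.six.getD (pos6 k) 0)) ∈ MulAction.fixedPoints ↥M (I6 → ZMod 2) := by
    rcases hxe with hxe | hxe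
    · rwa [← Nat.eq_of_beq_eq_true hxe]
    · exact hstep h1 (List.all_eq_true.1 six_q _ (six_mem k)) hxe
  rw [OneMemClass.coe_one, Units.val_one, Matrix.one_mulVec]
  exact (hfix _).1 h2 ⟨m, hm⟩

end CfsgLib.Fi22Invol25
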