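import Cfsg.Agent.Fi22Invol25.FixCommon
import Cfsg.Agent.Fi22Invol25.Reps
import Cfsg.Agent.Fi22Invol25.Six

/-!
The fixed group of the diagram symmetry times two commuting members: an elementary abelian group of
order 64 extended by the elliptic orthogonal group in six dimensions.
-/

set_option autoImplicit false
set_option maxRecDepth 100000

open scoped Matrix MatrixGroups

namespace CfsgLib.Fi22Invol25

open CfsgLib.CosetEnum CfsgLib.CosetEnum.Fi22 CfsgLib.Fi22Out CfsgLib.Fi22Aut8 CfsgLib.O8Mult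

/-- the fixed group of the third representative -/
noncomputable def K3 : Subgroup Cfsg.Spor.Fi22 where
  carrier := {g | rep22 2 g = g}
  one_mem' := map_one _
  mul_mem' := fun {a b} ha hb => by
    show rep22 2 (a * b) = a * b
    rw [map_mul, ha, hb]
  inv_mem' := fun {a} ha => by
    show rep22 2 a⁻¹ = a⁻¹
    rw [map_inv, ha]

theorem mem_K3 {g : Cfsg.Spor.Fi22} : g ∈ K3 ↔ rep22 2 g = g := Iff.rfl

theorem pts_spec (i : Fin 72) : f2 i < 3510 ∧ c2 i < 64 ∧ q6 (c2 i) = true ∧ m2 i < 72 ∧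
    (∀ j : Fin 72, f2 i = f2 j → i = j) ∧ ∀ j : Fin 72, c2 j = c2 i → (j : ℕ) = i ∨ (j : ℕ) = m2 i := by
  have h := (Model.allBelow_iff _ _).1 pts_check i i.2
  simp only [Bool.and_eq_true, Model.allBelow_iff, Nat.blt, Nat.ble_eq, Bool.or_eq_true, Bool.not_eq_true'] at h
  refine ⟨h.1.1.1.1.1, h.1.1.1.1.2, h.1.1.1.2, h.1.1.2, fun j hj => ?_, fun j hj => ?_⟩
  · rcases h.1.2 j j.2 with hh | hh
    · exact Fin.ext (Nat.eq_of_beq_eq_true hh)
    · rw [hj, Nat.beq_refl] at hh; exact Bool.noConfusion hh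
  · rcases h.2 j j.2 with (hh | hh) | hh
    · rw [hj, Nat.beq_refl] at hh; exact Bool.noConfusion hh
    · exact Or.inl (Nat.eq_of_beq_eq_true hh)
    · exact Or.inr (Nat.eq_of_beq_eq_true hh)

/-- one of the 72 points -/
noncomputable def pt2 (i : Fin 72) : Pt := pt (f2 i) (pts_spec i).1

theorem pt2_val (i : Fin 72) : ((pt2 i : Pt) : ℕ) = f2 i := rfl

theorem pt2_injective : Function.Injective pt2 := fun i j h => (pts_spec i).2.2.2.2.1 j (congrArg Fin.val h)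

theorem fixed_iff_pt2 (p : Pt) : permOf (rep22 2) p = p ↔ ∃ i, pt2 i = p := by
  have h := (Model.allBelow_iff _ _).1 fix_check p p.2
  rw [beq_iff_eq, ← permOf_rep_val (by norm_num)] at h
  constructor
  · intro hp
    rw [hp, Nat.beq_refl] at h
    obtain ⟨q, hq, hqe⟩ := List.any_eq_true.1 h.symm
    obtain ⟨i, hi, rfl⟩ := List.getElem_of_mem hq
    refine ⟨⟨i, fix_len ▸ hi⟩, Fin.ext ?_⟩
    rw [pt2_val, Nat.eq_of_beq_eq_true hqe]
    exact List.getD_eq_getElem _ _ hi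
  · rintro ⟨i, rfl⟩
    refine Fin.ext (Nat.eq_of_beq_eq_true (h.trans (List.any_eq_true.2 ⟨_, ?_, Nat.beq_refl _⟩)))
    rw [pt2_val, f2, List.getD_eq_getElem _ _ (fix_len.symm ▸ i.2)]
    exact List.getElem_mem _

theorem tran_pt2_mem (i : Fin 72) : tran (pt2 i) ∈ K3 := by
  rw [mem_K3, ← tran_permOf, (fixed_iff_pt2 _).2 ⟨i, rfl⟩]

theorem commute_perm {g : Cfsg.Spor.Fi22} (hg : g ∈ K3) :
    permOf (rep22 2) * pi g = pi g * permOf (rep22 2) := by
  have h := pi_aut (rep22 2) g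
  rw [mem_K3.1 hg, eq_mul_inv_iff_mul_eq] at h
  exact h.symm

theorem exists_act (g : ↥K3) (i : Fin 72) : ∃ j, pt2 j = pi (g : Cfsg.Spor.Fi22) (pt2 i) := by
  refine (fixed_iff_pt2 _).1 ?_
  rw [← Equiv.Perm.mul_apply, commute_perm g.2, Equiv.Perm.mul_apply, (fixed_iff_pt2 _).2 ⟨i, rfl⟩]

/-- the action on the indices -/
noncomputable def act2 (g : ↥K3) (i : Fin 72) : Fin 72 := (exists_act g i).choose

theorem act2_spec (g : ↥K3) (i : Fin 72) : pt2 (act2 g i) = pi (g : Cfsg.Spor.Fi22) (pt2 i) :=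
  (exists_act g i).choose_spec

theorem act2_mul (g h : ↥K3) (i : Fin 72) : act2 (g * h) i = act2 g (act2 h i) :=
  pt2_injective (by
    rw [act2_spec, act2_spec, act2_spec, Subgroup.coe_mul, map_mul, Equiv.Perm.mul_apply])

theorem act2_one (i : Fin 72) : act2 1 i = i :=
  pt2_injective (by rw [act2_spec, Subgroup.coe_one, map_one, Equiv.Perm.one_apply])

theorem act2_injective (g : ↥K3) : Function.Injective (act2 g) := fun i j h =>
  pt2_injective ((pi (g : Cfsg.Spor.Fi22)).injective (by rw [← act2_spec, ← act2_spec, h]))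

theorem gimg_spec {t : ℕ} (ht : t < 7) (x : Fin 72) : gImg t x < 72 ∧
    runT Tab.perm.T Tab.perm.L (gFull t).reverse (f2 x) = f2 (gImg t x) := by
  have key : ∀ t < 7, allBelow (fun x => (gImg t x).blt 72 &&
      Nat.beq (runT Tab.perm.T Tab.perm.L (gFull t).reverse (f2 x)) (f2 (gImg t x))) 72 = true := fun t ht => by
    by_cases h4 : t < 4
    · exact (allFrom_iff _ _ _).1 gimg_check0 t (Nat.zero_le _) h4
    · exact (allFrom_iff _ _ _).1 gimg_check1 t (by omega) (by omega)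
  have h := (Model.allBelow_iff _ _).1 (key t ht) x x.2
  simp only [Bool.and_eq_true, Nat.blt, Nat.ble_eq] at h
  exact ⟨h.1, Nat.eq_of_beq_eq_true h.2⟩

theorem gidx_spec {t : ℕ} (ht : t < 7) : ∃ h : gIdx t < 72,
    (∀ x ∈ gFull t, x < 9) ∧ tran (pt2 ⟨gIdx t, h⟩) = gword g9 (gFull t) := by
  have h := (Model.allBelow_iff _ _).1 gword_check t ht
  simp only [Bool.and_eq_true, List.all_eq_true, Nat.blt, Nat.ble_eq] at h
  obtain ⟨⟨h1, h2⟩, h3⟩ := h
  refine ⟨h1, h2, ?_⟩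
  have hw : ∀ x ∈ TwoData.gWords.getD t [], x < 9 := fun x hx =>
    h2 x (List.mem_append_left _ (List.mem_append_left _ hx))
  have hp : pi (gword g9 (TwoData.gWords.getD t [])) P0 = pt2 ⟨gIdx t, h1⟩ := by
    refine Fin.ext ?_
    rw [pi_gword_apply hw, pt2_val]
    exact Nat.eq_of_beq_eq_true h3
  rw [← hp, ← tran_conj, tran_zero, gFull, gword_g9_append, gword_g9_append, gword_reverse,
    gword_g9_singleton (by norm_num)]
  rfl

/-- a generating transposition -/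
noncomputable def gT (t : ℕ) : Cfsg.Spor.Fi22 := gword g9 (gFull t)

theorem pi_gT {t : ℕ} (ht : t < 7) (x : Fin 72) :
    pi (gT t) (pt2 x) = pt2 ⟨gImg t x, (gimg_spec ht x).1⟩ := by
  refine Fin.ext ?_
  rw [gT, pi_gword_apply (gidx_spec ht).choose_spec.1, pt2_val, pt2_val]
  exact (gimg_spec ht x).2

theorem pi_gRun : ∀ {u : List ℕ}, (∀ t ∈ u, t < 7) → ∀ x : Fin 72,
    ∃ h : gRun u x < 72, pi (u.map gT).prod (pt2 x) = pt2 ⟨gRun u x, h⟩
  | [], _, x => ⟨x.2, by simp [gRun]⟩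
  | t :: u, hu, x => by
    obtain ⟨h, e⟩ := pi_gRun (fun s hs => hu s (List.mem_cons_of_mem _ hs)) x
    refine ⟨(gimg_spec (hu t List.mem_cons_self) ⟨_, h⟩).1, ?_⟩
    rw [List.map_cons, List.prod_cons, map_mul, Equiv.Perm.mul_apply, e, pi_gT (hu t List.mem_cons_self)]
    rfl

theorem gT_inv {t : ℕ} (ht : t < 7) : (gT t)⁻¹ = gT t := by
  rw [gT, ← gword_reverse, gFull]
  simp only [List.reverse_append, List.reverse_reverse, List.reverse_cons, List.reverse_nil, List.nil_append,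
    List.append_assoc]

theorem prod_reverse : ∀ {u : List ℕ}, (∀ t ∈ u, t < 7) → (u.reverse.map gT).prod = ((u.map gT).prod)⁻¹
  | [], _ => by simp
  | t :: u, hu => by
    rw [List.reverse_cons, List.map_append, List.prod_append, List.map_cons, List.map_cons, List.map_nil,
      List.prod_cons, List.prod_cons, List.prod_nil, mul_one,
      prod_reverse (fun s hs => hu s (List.mem_cons_of_mem _ hs)), mul_inv_rev, gT_inv (hu t List.mem_cons_self)]

theorem pi_tran_pt2 (i x : Fin 72) : ∃ h : img2 i x < 72, pi (tran (pt2 i)) (pt2 x) = pt2 ⟨img2 i x, h⟩ := by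
  have h := (Model.allBelow_iff _ _).1 pword_check i i.2
  simp only [Bool.and_eq_true, List.all_eq_true, Nat.blt, Nat.ble_eq] at h
  obtain ⟨⟨hm, hu⟩, he⟩ := h
  obtain ⟨hg, -, hgt⟩ := gidx_spec hm
  obtain ⟨h1, e1⟩ := pi_gRun hu ⟨_, hg⟩
  have hi : pi (((TwoData.pWords.getD i []).map gT).prod) (pt2 ⟨_, hg⟩) = pt2 i :=
    e1.trans (congrArg pt2 (Fin.ext (Nat.eq_of_beq_eq_true he)))
  have htr : tran (pt2 i) = ((pFull i).map gT).prod := by
    rw [← hi, ← tran_conj, hgt, pFull, List.map_append, List.map_append, List.prod_append, List.prod_append,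
      prod_reverse hu, List.map_cons, List.map_nil, List.prod_singleton]
    rfl
  have hall : ∀ t ∈ pFull i, t < 7 := by
    intro t ht
    simp only [pFull, List.mem_append, List.mem_singleton, List.mem_reverse] at ht
    rcases ht with (ht | rfl) | ht
    · exact hu t ht
    · exact hm
    · exact hu t ht
  rw [htr]
  exact pi_gRun hall x

theorem adj_iff (i j : Fin 72) : pi (tran (pt2 i)) (pt2 j) = pt2 j ↔ b6 (c2 i) (c2 j) = false := by
  have h := (Model.allBelow_iff _ _).1 ((Model.allBelow_iff _ _).1 adj_check i i.2) j j.2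
  rw [beq_iff_eq] at h
  obtain ⟨h1, e⟩ := pi_tran_pt2 i j
  rw [e, pt2_injective.eq_iff, Fin.ext_iff]
  show img2 i j = j ↔ _
  rw [← Bool.not_eq_true', ← h]
  exact ⟨fun he => by rw [he]; exact Nat.beq_refl _, Nat.eq_of_beq_eq_true⟩

theorem b6_act (g : ↥K3) (i j : Fin 72) : b6 (c2 (act2 g i)) (c2 (act2 g j)) = b6 (c2 i) (c2 j) := by
  have key : pi (tran (pt2 (act2 g i))) (pt2 (act2 g j)) = pt2 (act2 g j) ↔
      pi (tran (pt2 i)) (pt2 j) = pt2 j := by
    rw [act2_spec, act2_spec, ← tran_conj]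
    simp only [map_mul, map_inv, Equiv.Perm.mul_apply, Equiv.Perm.inv_def, Equiv.symm_apply_apply,
      EmbeddingLike.apply_eq_iff_eq]
  rw [adj_iff, adj_iff] at key
  cases h1 : b6 (c2 (act2 g i)) (c2 (act2 g j)) <;> cases h2 : b6 (c2 i) (c2 j) <;>
    simp [h1, h2] at key ⊢

/-- the vector of a point -/
def v2 (i : Fin 72) : I6 → ZMod 2 := vec6 (c2 i)

theorem six_lt (k : I6) : TwoData.six.getD (pos6 k) 0 < 72 := by
  have h : ∀ k : I6, TwoData.six.getD (pos6 k) 0 < 72 := by decide +kernel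
  exact h k

/-- the basis index of a coordinate -/
def sx (k : I6) : Fin 72 := ⟨TwoData.six.getD (pos6 k) 0, six_lt k⟩

/-- the images of the basis, as columns -/
noncomputable def Mg (g : ↥K3) : Matrix I6 I6 (ZMod 2) := Matrix.of fun x k => v2 (act2 g (sx k)) x

theorem mg_gram (g : ↥K3) : (Mg g)ᵀ * Bm6 * Mg g = Emᵀ * Bm6 * Em := by
  ext k l
  have e : ∀ A : Matrix I6 I6 (ZMod 2), (Aᵀ * Bm6 * A) k l = (fun x => A x k) ⬝ᵥ (Bm6 *ᵥ fun y => A y l) :=
    fun A => by rw [Matrix.mul_assoc]; rfl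
  rw [e, e]
  show vec6 _ ⬝ᵥ (Bm6 *ᵥ vec6 _) = vec6 _ ⬝ᵥ (Bm6 *ᵥ vec6 _)
  rw [b6_vec, b6_vec, b6_act g (sx k) (sx l)]
  rfl

theorem mg_inv (g : ↥K3) : Mg g * (Gi * (Mg g)ᵀ * Bm6) = 1 := by
  refine mul_eq_one_comm.1 ?_
  rw [Matrix.mul_assoc, Matrix.mul_assoc, ← Matrix.mul_assoc _ Bm6, mg_gram, Gi_gram]

/-- the linear map of an element -/
noncomputable def Lg (g : ↥K3) : Matrix I6 I6 (ZMod 2) := Mg g * Rm6

theorem lg_em (g : ↥K3) : Lg g * Em = Mg g := by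
  rw [Lg, Matrix.mul_assoc, mul_eq_one_comm.1 Em_Rm, Matrix.mul_one]

theorem lg_act (g : ↥K3) (i : Fin 72) : Lg g *ᵥ v2 i = v2 (act2 g i) := by
  have h1 : ((Mg g)ᵀ * Bm6) *ᵥ v2 (act2 g i) = (Emᵀ * Bm6) *ᵥ v2 i := by
    funext k
    rw [← Matrix.mulVec_mulVec, ← Matrix.mulVec_mulVec]
    show vec6 _ ⬝ᵥ (Bm6 *ᵥ vec6 _) = vec6 _ ⬝ᵥ (Bm6 *ᵥ vec6 _)
    rw [b6_vec, b6_vec, b6_act g (sx k) i]
    rfl
  have h2 : ((Mg g)ᵀ * Bm6) *ᵥ (Lg g *ᵥ v2 i) = (Emᵀ * Bm6) *ᵥ v2 i := by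
    rw [Matrix.mulVec_mulVec, Lg, ← Matrix.mul_assoc, mg_gram, Matrix.mul_assoc, Em_Rm, Matrix.mul_one]
  have h3 := congrArg ((Mg g * Gi) *ᵥ ·) (h2.trans h1.symm)
  simp only [Matrix.mulVec_mulVec] at h3
  rw [show Mg g * Gi * ((Mg g)ᵀ * Bm6) = 1 by
      rw [Matrix.mul_assoc, ← Matrix.mul_assoc Gi]; exact mg_inv g,
    Matrix.one_mulVec] at h3
  rw [← h3, ← Matrix.mul_assoc (Mg g * Gi), show Mg g * Gi * ((Mg g)ᵀ * Bm6) = 1 by
      rw [Matrix.mul_assoc, ← Matrix.mul_assoc Gi]; exact mg_inv g, Matrix.one_mul]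

theorem lg_mul (g h : ↥K3) : Lg (g * h) = Lg g * Lg h := by
  refine mat6_ext fun k => ?_
  rw [← Matrix.mulVec_mulVec]
  show Lg (g * h) *ᵥ v2 (sx k) = Lg g *ᵥ (Lg h *ᵥ v2 (sx k))
  rw [lg_act, lg_act, lg_act, act2_mul]

theorem lg_one : Lg 1 = 1 := by
  refine mat6_ext fun k => ?_
  show Lg 1 *ᵥ v2 (sx k) = (1 : Matrix I6 I6 (ZMod 2)) *ᵥ v2 (sx k)
  rw [lg_act, act2_one, Matrix.one_mulVec]

theorem lg_bm (g : ↥K3) : (Lg g)ᵀ * Bm6 * Lg g = Bm6 := by
  rw [Lg, show (Mg g * Rm6)ᵀ * Bm6 * (Mg g * Rm6) = Rm6ᵀ * ((Mg g)ᵀ * Bm6 * Mg g) * Rm6 by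
    simp only [Matrix.transpose_mul, Matrix.mul_assoc], mg_gram,
    show Rm6ᵀ * (Emᵀ * Bm6 * Em) * Rm6 = (Em * Rm6)ᵀ * Bm6 * (Em * Rm6) by
      simp only [Matrix.transpose_mul, Matrix.mul_assoc], Em_Rm, Matrix.transpose_one, Matrix.one_mul,
    Matrix.mul_one]

theorem lg_q (g : ↥K3) (x : I6 → ZMod 2) : Q6 (Lg g *ᵥ x) = Q6 x := by
  have hb : ∀ u w : I6 → ZMod 2, (Lg g *ᵥ u) ⬝ᵥ (Bm6 *ᵥ (Lg g *ᵥ w)) = u ⬝ᵥ (Bm6 *ᵥ w) := fun u w => by
    rw [← Matrix.vecMul_transpose, ← Matrix.dotProduct_mulVec, Matrix.mulVec_mulVec, Matrix.mulVec_mulVec,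
      lg_bm]
  let d : (I6 → ZMod 2) →+ ZMod 2 := AddMonoidHom.mk' (fun u => Q6 (Lg g *ᵥ u) - Q6 u) fun u w => by
    rw [Matrix.mulVec_add, q6_add, q6_add u w, hb]; ring
  have hcol : ∀ k : I6, d (v2 (sx k)) = 0 := fun k => by
    show Q6 (Lg g *ᵥ v2 (sx k)) - Q6 (v2 (sx k)) = 0
    rw [lg_act, v2, v2, q6_vec, q6_vec, (pts_spec _).2.2.1, (pts_spec _).2.2.1, sub_self]
  have hx : x = ∑ k, (Rm6 *ᵥ x) k • v2 (sx k) := by
    funext j
    conv_lhs => rw [← Matrix.one_mulVec x, ← Em_Rm, ← Matrix.mulVec_mulVec]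
    simp only [Matrix.mulVec, dotProduct, Finset.sum_apply, Pi.smul_apply, smul_eq_mul]
    exact Finset.sum_congr rfl fun k _ => mul_comm _ _
  have hd : d x = 0 := by
    rw [hx, map_sum]
    refine Finset.sum_eq_zero fun k _ => ?_
    rcases (show ∀ c : ZMod 2, c = 0 ∨ c = 1 by decide) ((Rm6 *ᵥ x) k) with h | h <;> rw [h]
    · rw [zero_smul, map_zero]
    · rw [one_smul, hcol]
  exact sub_eq_zero.1 hd

/-- the unit of the linear map -/
noncomputable def glOf (g : ↥K3) : GL I6 (ZMod 2) :=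
  ⟨Lg g, Lg g⁻¹, by rw [← lg_mul, mul_inv_cancel, lg_one], by rw [← lg_mul, inv_mul_cancel, lg_one]⟩

theorem glOf_mem (g : ↥K3) : glOf g ∈ O6 := CfsgLib.Char2Forms.mem_iso.2 (lg_q g)

/-- the action on the six-dimensional space -/
noncomputable def psi3 : ↥K3 →* ↥O6 :=
  MonoidHom.mk' (fun g => ⟨glOf g, glOf_mem g⟩) fun g h => Subtype.ext (Units.ext (lg_mul g h))

theorem psi3_ker {g : ↥K3} (hg : psi3 g = 1) (i : Fin 72) : c2 (act2 g i) = c2 i := by
  have h := lg_act g i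
  rw [show Lg g = 1 from congrArg Units.val (congrArg Subtype.val hg), Matrix.one_mulVec] at h
  exact (vec6_inj (pts_spec i).2.1 (pts_spec _).2.1 h).symm

theorem steps_fix {g : ↥K3} : ∀ (seen : List ℕ) (l : List (ℕ × ℕ × ℕ)), stepsOK seen l = true →
    (∀ r ∈ seen, ∀ h : r < 72, act2 g ⟨r, h⟩ = ⟨r, h⟩) →
    ∀ r ∈ reached seen l, ∀ h : r < 72, act2 g ⟨r, h⟩ = ⟨r, h⟩
  | seen, [], _, hs => hs
  | seen, (i, k, j) :: l, hl, hs => by
    simp only [stepsOK, Bool.and_eq_true, Nat.blt, Nat.ble_eq, List.any_eq_true] at hl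
    obtain ⟨⟨⟨⟨⟨⟨hi, hk⟩, hj⟩, ⟨a, ha, hai⟩⟩, ⟨b, hb, hbk⟩⟩, himg⟩, hrest⟩ := hl
    obtain rfl := Nat.eq_of_beq_eq_true hai
    obtain rfl := Nat.eq_of_beq_eq_true hbk
    refine steps_fix (j :: seen) l hrest ?_
    intro r hr hr72
    rcases List.mem_cons.1 hr with rfl | hr
    · obtain ⟨h2, e⟩ := pi_tran_pt2 ⟨i, hi⟩ ⟨k, hk⟩
      have hjj : (⟨img2 i k, h2⟩ : Fin 72) = ⟨r, hr72⟩ := Fin.ext (Nat.eq_of_beq_eq_true himg)
      rw [hjj] at e
      refine pt2_injective ?_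
      rw [act2_spec, ← e, ← Equiv.Perm.mul_apply, ← map_mul]
      have hgi := act2_spec g ⟨i, hi⟩
      rw [hs i ha hi] at hgi
      have hgk := act2_spec g ⟨k, hk⟩
      rw [hs k hb hk] at hgk
      rw [show (g : Cfsg.Spor.Fi22) * tran (pt2 ⟨i, hi⟩) = tran (pt2 ⟨i, hi⟩) * g from
        ((Fi22Aut8.commute_tran_iff).2 hgi.symm).eq, map_mul, Equiv.Perm.mul_apply, ← hgk]
    · exact hs r hr hr72

theorem all_fixed {g : ↥K3} (hg : psi3 g = 1) (h6 : ∀ k, act2 g (sx k) = sx k) (i : Fin 72) :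
    act2 g i = i := by
  have hc := steps_check
  simp only [Bool.and_eq_true, Model.allBelow_iff, List.any_eq_true, List.all_eq_true, Nat.blt, Nat.ble_eq] at hc
  obtain ⟨⟨hok, hlt⟩, hcov⟩ := hc
  obtain ⟨r, hr, hr72, hre⟩ := hcov i i.2
  have hr' : act2 g ⟨r, hr72⟩ = ⟨r, hr72⟩ := by
    refine steps_fix _ _ hok (fun s hs hs72 => ?_) r hr hr72
    have : ∀ s ∈ TwoData.six, ∃ k : I6, TwoData.six.getD (pos6 k) 0 = s := by decide +kernel
    obtain ⟨k, rfl⟩ := this s hs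
    exact h6 k
  by_cases hir : (i : ℕ) = r
  · rw [show i = ⟨r, hr72⟩ from Fin.ext hir]; exact hr'
  have hci : c2 i = c2 r := (Nat.eq_of_beq_eq_true hre).symm
  have hcg : c2 (act2 g i) = c2 r := (psi3_ker hg i).trans hci
  have h1 := (pts_spec ⟨r, hr72⟩).2.2.2.2.2 i hci
  have h2 := (pts_spec ⟨r, hr72⟩).2.2.2.2.2 (act2 g i) hcg
  rcases h2 with h2 | h2
  · refine absurd ?_ hir
    exact congrArg Fin.val (act2_injective g ((Fin.ext h2).trans hr'.symm))
  · exact Fin.ext (h2.trans (h1.resolve_left hir).symm)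

theorem ab_index : pt2 2 = cpt 69 ∧ pt2 3 = cpt 100 := by
  refine ⟨Fin.ext ?_, Fin.ext ?_⟩
  · rw [cpt_val (by norm_num) alpha_facts.1]; exact ab_check.1
  · rw [cpt_val (by norm_num) alpha_facts.2.1]; exact ab_check.2.1

theorem rep_two_eq {g : Cfsg.Spor.Fi22} (ha : pi g (cpt 69) = cpt 69) (hb : pi g (cpt 100) = cpt 100) :
    rep22 2 g = sigma22 g := by
  have h1 : Commute g (mem9 0) := mem9_zero_eq ▸ Fi22Aut8.commute_tran_iff.2 ha
  have h2 : Commute g (mem9 5) := mem9_five_eq ▸ Fi22Aut8.commute_tran_iff.2 hb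
  show sigma22 (MulAut.conj (mem9 0 * mem9 5) g) = sigma22 g
  rw [MulAut.conj_apply, ← (h1.mul_right h2).eq, mul_inv_cancel_right]

theorem stab_two : K3 ⊓ stabPt (cpt 69) = I2 := by
  ext g
  constructor
  · rintro ⟨hg, ha⟩
    have ha' : pi g (cpt 69) = cpt 69 := ha
    have hb : pi g (cpt 100) = cpt 100 := by
      have e2 : act2 ⟨g, hg⟩ 2 = 2 := pt2_injective (by rw [act2_spec, ab_index.1]; exact ha')
      have hc : c2 (act2 ⟨g, hg⟩ 3) = c2 (2 : Fin 72) := by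
        have h := lg_act ⟨g, hg⟩ 3
        rw [show v2 3 = v2 2 from congrArg vec6 ab_check.2.2.1.symm, lg_act, e2] at h
        exact (vec6_inj (pts_spec _).2.1 (pts_spec _).2.1 h).symm
      have e3 : act2 ⟨g, hg⟩ 3 = 3 := by
        rcases (pts_spec 2).2.2.2.2.2 _ hc with h | h
        · exact absurd (act2_injective _ ((Fin.ext h).trans e2.symm)) (by decide)
        · exact Fin.ext (h.trans ab_check.2.2.2)
      rw [← ab_index.2, ← act2_spec ⟨g, hg⟩, e3]
    exact ⟨⟨fixed_sigma_iff.1 ((rep_two_eq ha' hb).symm.trans hg), ha⟩, hb⟩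
  · rintro ⟨⟨h9, ha⟩, hb⟩
    exact ⟨(rep_two_eq ha hb).trans (fixed_sigma_iff.2 h9), ha⟩

theorem orbit_reach : ∀ (seen : List ℕ) (l : List (ℕ × ℕ × ℕ)), orbitOK seen l = true →
    (∀ r ∈ seen, ∀ h : r < 72, ∃ g : ↥K3, act2 g 2 = ⟨r, h⟩) →
    ∀ r ∈ reached seen l, ∀ h : r < 72, ∃ g : ↥K3, act2 g 2 = ⟨r, h⟩
  | seen, [], _, hs => hs
  | seen, (i, k, j) :: l, hl, hs => by
    simp only [orbitOK, Bool.and_eq_true, Nat.blt, Nat.ble_eq, List.any_eq_true] at hl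
    obtain ⟨⟨⟨⟨⟨hi, hk⟩, hj⟩, ⟨b, hb, hbk⟩⟩, himg⟩, hrest⟩ := hl
    obtain rfl := Nat.eq_of_beq_eq_true hbk
    refine orbit_reach (j :: seen) l hrest ?_
    intro r hr hr72
    rcases List.mem_cons.1 hr with rfl | hr
    · obtain ⟨g, hg⟩ := hs k hb hk
      refine ⟨⟨_, tran_pt2_mem ⟨i, hi⟩⟩ * g, ?_⟩
      rw [act2_mul, hg]
      refine pt2_injective ?_
      obtain ⟨h2, e⟩ := pi_tran_pt2 ⟨i, hi⟩ ⟨k, hk⟩
      rw [act2_spec, e]
      exact congrArg pt2 (Fin.ext (Nat.eq_of_beq_eq_true himg))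
    · exact hs r hr hr72

theorem card_K3 : Nat.card ↥K3 = 3317760 := by
  have h := card_orbit_mul K3 (cpt 69)
  rw [stab_two, card_I2] at h
  have hset : {q : Pt | ∃ g ∈ K3, pi g (cpt 69) = q} = Set.range pt2 := by
    ext q
    constructor
    · rintro ⟨g, hg, rfl⟩
      exact ⟨act2 ⟨g, hg⟩ 2, by rw [act2_spec, ab_index.1]⟩
    · rintro ⟨i, rfl⟩
      have hc := orbit_check
      simp only [Bool.and_eq_true, Model.allBelow_iff, List.any_eq_true] at hc
      obtain ⟨r, hr, hre⟩ := hc.2 i i.2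
      obtain rfl := Nat.eq_of_beq_eq_true hre
      obtain ⟨g, hg⟩ := orbit_reach _ _ hc.1 (fun s hs h => ⟨1, by
        rw [act2_one]; exact Fin.ext (List.mem_singleton.1 hs).symm⟩) (i : ℕ) hr i.2
      exact ⟨g, g.2, by rw [← ab_index.1, ← act2_spec, hg]⟩
  rw [hset, ← Nat.card_coe_set_eq, Nat.card_range_of_injective pt2_injective, Nat.card_fin] at h
  omega

/-- a mask that may be the image of a complement -/
def candidate (z c : ℕ) : Bool :=
  qb c == qb z && TwoData.span.all fun p => qb (c ^^^ p.2) == qb (z ^^^ p.2)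

theorem cand_check : allBelow (fun c1 => !(candidate 2 c1) || allBelow (fun c2' => !(candidate 4 c2') ||
    !(qb (c1 ^^^ c2') == qb (2 ^^^ 4)) || (Nat.beq c1 2 && Nat.beq c2' 4) ||
    (Nat.beq c1 (rfl' 69 2) && Nat.beq c2' (rfl' 69 4)) ||
    (Nat.beq c1 (rfl' 100 2) && Nat.beq c2' (rfl' 100 4)) ||
    (Nat.beq c1 (rfl' 69 (rfl' 100 2)) && Nat.beq c2' (rfl' 69 (rfl' 100 4)))) 256) 256 = true := by
  decide +kernel

theorem span_fixed : (TwoData.span.all fun p =>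
    Nat.beq (rfl' 69 p.2) p.2 && Nat.beq (rfl' 100 p.2) p.2) = true := by
  decide +kernel

theorem comb_check : allBelow (fun k => Nat.beq ((TwoData.combs.getD k []).foldr (· ^^^ ·) 0) (2 ^ k) &&
    (TwoData.combs.getD k []).all (fun c => (TwoData.span.any fun p => Nat.beq p.2 c) || Nat.beq c 2 || Nat.beq c 4)) 8 = true := by
  decide +kernel

theorem O2_ext {e f : O2} (hs : ∀ p ∈ TwoData.span, mat e *ᵥ vec p.2 = mat f *ᵥ vec p.2)
    (h2 : mat e *ᵥ vec 2 = mat f *ᵥ vec 2) (h4 : mat e *ᵥ vec 4 = mat f *ᵥ vec 4) : e = f := by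
  have hk : ∀ k : Fin 8, mat e *ᵥ vec (2 ^ (k : ℕ)) = mat f *ᵥ vec (2 ^ (k : ℕ)) := by
    intro k
    have h := (Model.allBelow_iff _ _).1 comb_check k k.2
    simp only [Bool.and_eq_true, List.all_eq_true, Bool.or_eq_true, List.any_eq_true] at h
    rw [← Nat.eq_of_beq_eq_true h.1, vec_foldr, ← Matrix.mulVecLin_apply, ← Matrix.mulVecLin_apply,
      map_list_sum, map_list_sum, List.map_map, List.map_map]
    refine congrArg List.sum (List.map_congr_left fun c hc => ?_)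
    show mat e *ᵥ vec c = mat f *ᵥ vec c
    rcases h.2 c hc with (⟨p, hp, hpc⟩ | hc') | hc'
    · rw [← Nat.eq_of_beq_eq_true hpc]; exact hs p hp
    · rw [Nat.eq_of_beq_eq_true hc']; exact h2
    · rw [Nat.eq_of_beq_eq_true hc']; exact h4
  have hall : mat e = mat f := Matrix.ext_of_mulVec_single fun j => by
    obtain ⟨c, -, hc⟩ := vec_surjective (Pi.single j 1)
    rw [← hc, vec_decomp c, ← Matrix.mulVecLin_apply, ← Matrix.mulVecLin_apply, map_list_sum, map_list_sum,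
      List.map_map, List.map_map]
    refine congrArg List.sum (List.map_congr_left fun k hk' => ?_)
    simp only [Function.comp_apply, Matrix.mulVecLin_apply, Matrix.mulVec_smul]
    rw [hk ⟨k, List.mem_range.1 hk'⟩]
  exact Subtype.ext (Units.ext hall)

theorem eq_one_of_all {g : ↥K3} (h : ∀ i, act2 g i = i) : g = 1 := by
  have hpt : ∀ i, pi (g : Cfsg.Spor.Fi22) (pt2 i) = pt2 i := fun i => by rw [← act2_spec, h i]
  have hI2 : (g : Cfsg.Spor.Fi22) ∈ I2 := stab_two ▸ ⟨g.2, by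
    show pi (g : Cfsg.Spor.Fi22) (cpt 69) = cpt 69
    rw [← ab_index.1]; exact hpt 2⟩
  obtain ⟨e, he⟩ := (I1_eq ▸ hI2.1 : (g : Cfsg.Spor.Fi22) ∈ liftHom.range ⊓ stabPt (cpt 69)).1
  have hsp : ∀ p ∈ TwoData.span, mat e *ᵥ vec p.2 = vec p.2 := by
    intro p hp
    have hc := List.all_eq_true.1 span_check p hp
    simp only [Bool.and_eq_true, Nat.blt, Nat.ble_eq] at hc
    obtain ⟨⟨⟨h1, h2⟩, h3⟩, h4⟩ := hc
    refine (lift_cpt_eq e h2 h3 h2 h3).1 ?_
    have ec : pt2 ⟨p.1, h1⟩ = cpt p.2 := Fin.ext (by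
      rw [pt2_val, cpt_val h2 h3]; exact Nat.eq_of_beq_eq_true h4)
    rw [← ec, he]
    exact hpt _
  have hz : ∀ z, ∀ c, c < 256 → mat e *ᵥ vec z = vec c → candidate z c = true := by
    intro z c _ hzc
    have hb : ∀ a b : Bool, b2z a = b2z b → a = b := by decide
    simp only [candidate, Bool.and_eq_true, beq_iff_eq, List.all_eq_true]
    refine ⟨hb _ _ ?_, fun p hp => hb _ _ ?_⟩
    · rw [← q_vec, ← q_vec, ← hzc, q_iso]
    · rw [← q_vec, ← q_vec, vec_xor, vec_xor, ← hzc, ← hsp p hp, ← Matrix.mulVec_add, q_iso, hsp p hp]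
  obtain ⟨c1, hc1, e1⟩ := vec_surjective (mat e *ᵥ vec 2)
  obtain ⟨c4, hc4, e4⟩ := vec_surjective (mat e *ᵥ vec 4)
  have hq24 : qb (c1 ^^^ c4) = qb (2 ^^^ 4) := by
    have hb : ∀ a b : Bool, b2z a = b2z b → a = b := by decide
    refine hb _ _ ?_
    rw [← q_vec, ← q_vec, vec_xor, vec_xor, e1, e4, ← Matrix.mulVec_add, q_iso]
  have hk := (Model.allBelow_iff _ _).1 cand_check c1 hc1
  rw [hz 2 c1 hc1 e1.symm, Bool.not_true, Bool.false_or, Model.allBelow_iff] at hk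
  have hk2 := hk c4 hc4
  rw [hz 4 c4 hc4 e4.symm, hq24] at hk2
  simp only [Bool.not_true, Bool.false_or, beq_self_eq_true, Bool.or_eq_true, Bool.and_eq_true] at hk2
  have hfix : ∀ (w : List ℕ) (f : O2), liftHom f = uw w →
      (∀ p ∈ TwoData.span, mat f *ᵥ vec p.2 = vec p.2) → mat f *ᵥ vec 2 = vec c1 → mat f *ᵥ vec 4 = vec c4 →
      (g : Cfsg.Spor.Fi22) = uw w := by
    intro w f hw hf h2 h4
    rw [← hw, ← he, O2_ext (e := e) (f := f) (fun p hp => by rw [hsp p hp, hf p hp])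
      (by rw [h2, e1]) (by rw [h4, e4])]
  have hno : ∀ w ∈ ([[0], [5], [0, 5]] : List (List ℕ)), (g : Cfsg.Spor.Fi22) ≠ uw w := by
    intro w hw hgw
    have hm := List.all_eq_true.1 moves_check w hw
    simp only [Bool.and_eq_true, List.all_eq_true, List.any_eq_true, List.mem_range, Nat.blt, Nat.ble_eq,
      Bool.not_eq_true'] at hm
    obtain ⟨hw9, i, hi, hne⟩ := hm
    have hv := congrArg Fin.val (hpt ⟨i, hi⟩)
    rw [hgw, pi_uw hw9, pt2_val] at hv
    rw [hv, Nat.beq_refl] at hne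
    exact Bool.noConfusion hne
  have a0' : alpha 0 = 69 := rfl
  have a5' : alpha 5 = 100 := rfl
  have hsf := fun p (hp : p ∈ TwoData.span) => List.all_eq_true.1 span_fixed p hp
  simp only [Bool.and_eq_true] at hsf
  rcases hk2 with ((h | h) | h) | h
  · refine Subtype.ext ?_
    rw [hfix [] 1 (by rw [map_one, uw_nil]) (fun p _ => by simp [mat])
      (by rw [Nat.eq_of_beq_eq_true h.1]; simp [mat]) (by rw [Nat.eq_of_beq_eq_true h.2]; simp [mat]), uw_nil]
    rfl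
  · refine absurd (hfix [0] (S 0) (by rw [liftHom_S, uw_cons, uw_nil, mul_one]; rfl) (fun p hp => ?_) ?_ ?_)
      (hno _ (by simp))
    · rw [mat, acts_S 0, a0', Nat.eq_of_beq_eq_true (hsf p hp).1]
    · rw [mat, acts_S 0, a0', Nat.eq_of_beq_eq_true h.1]
    · rw [mat, acts_S 0, a0', Nat.eq_of_beq_eq_true h.2]
  · refine absurd (hfix [5] (S 5) (by rw [liftHom_S, uw_cons, uw_nil, mul_one]; rfl) (fun p hp => ?_) ?_ ?_)
      (hno _ (by simp))
    · rw [mat, acts_S 5, a5', Nat.eq_of_beq_eq_true (hsf p hp).2]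
    · rw [mat, acts_S 5, a5', Nat.eq_of_beq_eq_true h.1]
    · rw [mat, acts_S 5, a5', Nat.eq_of_beq_eq_true h.2]
  · refine absurd (hfix [0, 5] (S 0 * S 5)
      (by rw [map_mul, liftHom_S, liftHom_S, uw_cons, uw_cons, uw_nil, mul_one]; rfl) (fun p hp => ?_) ?_ ?_)
      (hno _ (by simp))
    · rw [mat, (acts_S 0).mul (acts_S 5), Function.comp_apply, a0', a5', Nat.eq_of_beq_eq_true (hsf p hp).2,
        Nat.eq_of_beq_eq_true (hsf p hp).1]
    · rw [mat, (acts_S 0).mul (acts_S 5), Function.comp_apply, a0', a5', Nat.eq_of_beq_eq_true h.1]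
    · rw [mat, (acts_S 0).mul (acts_S 5), Function.comp_apply, a0', a5', Nat.eq_of_beq_eq_true h.2]

theorem ker_two {g : ↥K3} (hg : psi3 g = 1) (h6 : ∀ k, act2 g (sx k) = sx k) : g = 1 :=
  eq_one_of_all (all_fixed hg h6)

theorem ker_pair {g h : ↥K3} (hg : psi3 g = 1) (hh : psi3 h = 1)
    (e : ∀ k, decide (act2 g (sx k) = sx k) = decide (act2 h (sx k) = sx k)) : g = h := by
  have key : h⁻¹ * g = 1 := ker_two (by rw [map_mul, map_inv, hg, hh, inv_one, one_mul]) fun k => by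
    have hgh : act2 g (sx k) = act2 h (sx k) := by
      rcases (pts_spec (sx k)).2.2.2.2.2 _ (psi3_ker hg (sx k)) with a | a <;>
        rcases (pts_spec (sx k)).2.2.2.2.2 _ (psi3_ker hh (sx k)) with b | b
      · exact Fin.ext (a.trans b.symm)
      · have := e k
        rw [decide_eq_decide] at this
        exact (Fin.ext a).trans (this.1 (Fin.ext a)).symm
      · have := e k
        rw [decide_eq_decide] at this
        exact (this.2 (Fin.ext b)).trans (Fin.ext b).symm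
      · exact Fin.ext (a.trans b.symm)
    rw [act2_mul, hgh, ← act2_mul, inv_mul_cancel, act2_one]
  exact (inv_mul_eq_one.1 key).symm

theorem finite_K3 : Finite ↥K3 := Nat.finite_of_card_ne_zero (by rw [card_K3]; norm_num)

theorem psi3_facts : Function.Surjective psi3 ∧ Nat.card ↥psi3.ker = 64 := by
  haveI := finite_K3
  have hk : Nat.card ↥psi3.ker ≤ 64 := by
    refine (Nat.card_le_card_of_injective (fun g : ↥psi3.ker => fun k => decide (act2 g.1 (sx k) = sx k))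
      fun g h e => Subtype.ext (ker_pair g.2 h.2 (congrFun e))).trans (le_of_eq ?_)
    simp
  have hr : Nat.card ↥psi3.range ≤ 51840 := by
    haveI : Finite ↥O6 := Nat.finite_of_card_ne_zero (by rw [card_O6]; norm_num)
    exact (Nat.card_le_card_of_injective _ Subtype.val_injective).trans (le_of_eq card_O6)
  have h := psi3.ker.card_mul_index
  rw [Subgroup.index_ker, card_K3] at h
  have h64 : Nat.card ↥psi3.ker = 64 := by
    by_contra hne
    have : Nat.card ↥psi3.ker * Nat.card ↥psi3.range ≤ 63 * 51840 := Nat.mul_le_mul (by omega) hr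
    omega
  refine ⟨MonoidHom.range_eq_top.1 ?_, h64⟩
  haveI : Finite ↥O6 := Nat.finite_of_card_ne_zero (by rw [card_O6]; norm_num)
  refine Subgroup.eq_top_of_card_eq _ ?_
  rw [h64] at h
  rw [card_O6]
  omega

theorem ker_sq (g : ↥psi3.ker) : g.1 * g.1 = 1 := by
  have hg : psi3 g.1 = 1 := g.2
  refine ker_two (by rw [map_mul, hg, one_mul]) fun k => ?_
  rw [act2_mul]
  rcases (pts_spec (sx k)).2.2.2.2.2 _ (psi3_ker hg (sx k)) with a | a
  · rw [show act2 g.1 (sx k) = sx k from Fin.ext a, show act2 g.1 (sx k) = sx k from Fin.ext a]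
  · rcases (pts_spec (sx k)).2.2.2.2.2 _ ((psi3_ker hg (act2 g.1 (sx k))).trans (psi3_ker hg (sx k))) with b | b
    · exact Fin.ext b
    · have := act2_injective g.1 (Fin.ext (b.trans a.symm))
      rw [this, this]

theorem pCore_of_surjective {C : Type*} [Group C] [Finite C] (f : C →* ↥O6) (hf : Function.Surjective f)
    (h64 : Nat.card ↥f.ker = 64) : Cfsg.pCore 2 C = f.ker := by
  haveI : Fact (Nat.Prime 2) := ⟨Nat.prime_two⟩
  refine le_antisymm (sSup_le fun N hN x hx => ?_)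
    (le_sSup ⟨inferInstance, IsPGroup.iff_card.2 ⟨6, h64⟩⟩)
  have hM := normal_two_group_O6 (hN.1.map f hf) (hN.2.map f)
  exact MonoidHom.mem_ker.2 (Subgroup.mem_bot.1 (hM ▸ Subgroup.mem_map_of_mem f hx))

theorem elementary_of_sq {X : Type*} [Group X] (O : Subgroup X) (hsq : ∀ x ∈ O, x * x = 1) :
    Cfsg.IsElementaryAbelian 2 O := by
  refine ⟨⟨⟨fun x y => Subtype.ext ?_⟩⟩, fun x hx => by rw [pow_two]; exact hsq x hx⟩
  have hxy := hsq _ (mul_mem x.2 y.2)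
  have hix : (x : X)⁻¹ = x := inv_eq_of_mul_eq_one_right (hsq _ x.2)
  have hiy : (y : X)⁻¹ = y := inv_eq_of_mul_eq_one_right (hsq _ y.2)
  show (x : X) * y = y * x
  calc (x : X) * y = ((x : X) * y)⁻¹ := (inv_eq_of_mul_eq_one_right hxy).symm
    _ = y * x := by rw [mul_inv_rev, hix, hiy]

end CfsgLib.Fi22Invol25
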