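import Cfsg.Agent.Fi22Invol25.Classify
import Cfsg.Agent.Fi22Invol25.FixOne
import Cfsg.Agent.Fi22Invol25.FixTwo

/-!
The outer involutions of a group isomorphic to Fi22 and their fixed groups.
-/

set_option autoImplicit false
set_option maxRecDepth 100000

open scoped Matrix MatrixGroups

namespace CfsgLib.Fi22Invol25

open CfsgLib.CosetEnum CfsgLib.CosetEnum.Fi22 CfsgLib.Fi22Out CfsgLib.Fi22Aut8 CfsgLib.O8Mult

theorem mem9_class {j : ℕ} (hj : j < 9) : ∃ g : Cfsg.Spor.Fi22, g * gen 0 * g⁻¹ = mem9 j :=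
  ⟨move (pt (mpoint j) (mpoint_lt hj)), (mem9_eq_tran hj).symm⟩

theorem sigma_not_inner : sigma22 ∉ (MulAut.conj : Cfsg.Spor.Fi22 →* MulAut Cfsg.Spor.Fi22).range := by
  rintro ⟨g, hg⟩
  have h := sign_pi g
  rw [← permOf_conj, hg, permOf_sigma, sign_outerPerm] at h
  exact absurd h (by decide)

theorem mem9_ne : mem9 0 ≠ mem9 5 := by
  rw [mem9_zero_eq, mem9_five_eq]
  intro h
  exact absurd (cpt_inj (by norm_num) (by norm_num) alpha_facts.1 alpha_facts.2.1 (tran_injective h)) (by norm_num)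

theorem mem9_commute : Commute (mem9 0) (mem9 5) := by
  rw [mem9_five_eq]
  refine Fi22Aut8.commute_tran_iff.2 (Fin.ext ?_)
  rw [pi_mem9 (by norm_num), cpt_five, pt_val]
  have h : mt 0 (mpoint 5) = mpoint 5 := by decide +kernel
  exact h

theorem rep_one_fixed_iff (g : Cfsg.Spor.Fi22) :
    rep22 1 g = g ↔ g ∈ I9 ⊓ Subgroup.centralizer {mem9 0} := by
  have hc : ∀ y, y ∈ Subgroup.centralizer ({mem9 0} : Set Cfsg.Spor.Fi22) ↔ Commute (mem9 0) y := fun y => by
    rw [Subgroup.mem_centralizer_iff]; simp [commute_iff_eq]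
  have hval : ∀ y, Commute (mem9 0) y → rep22 1 y = sigma22 y := fun y hy => by
    show sigma22 (MulAut.conj (mem9 0) y) = sigma22 y
    rw [MulAut.conj_apply, hy.eq, mul_inv_cancel_right]
  constructor
  · intro hg
    have hP : outerPerm * pi (mem9 0) = permOf (rep22 1) := by
      rw [show rep22 1 = sigma22 * MulAut.conj (mem9 0) from rfl, map_mul, permOf_sigma, permOf_conj]
    have h := pi_aut (rep22 1) g
    rw [hg, eq_mul_inv_iff_mul_eq, ← hP] at h
    have hcm : Commute (mem9 0) g := by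
      rw [mem9_zero_eq]
      exact (Fi22Aut8.commute_tran_iff.2 (commute_rep_one h.symm)).symm
    exact ⟨fixed_sigma_iff.1 ((hval g hcm).symm.trans hg), (hc g).2 hcm⟩
  · rintro ⟨h9, h0⟩
    exact (hval g ((hc g).1 h0)).trans (fixed_sigma_iff.2 h9)

theorem inf_centralizer_eq : I9 ⊓ Subgroup.centralizer {mem9 0} = I1 := by
  ext g
  refine and_congr_right fun _ => ?_
  show g ∈ Subgroup.centralizer {mem9 0} ↔ g ∈ stabPt (cpt 69)
  rw [mem_stabPt, ← Fi22Aut8.commute_tran_iff, ← mem9_zero_eq, Subgroup.mem_centralizer_iff]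
  simp only [Set.mem_singleton_iff, forall_eq]
  exact ⟨fun h => (show Commute (mem9 0) g from h).symm, fun h => h.symm⟩

theorem nonempty_I1 : Nonempty (↥I1 ≃* Multiplicative (ZMod 2) × Cfsg.PSp 3 (ZMod 2)) := by
  obtain ⟨ω⟩ := nonempty_stabV
  exact ⟨((MulEquiv.subgroupCongr map_stabV).symm.trans
    (stabV.equivMapOfInjective liftHom liftHom_injective).symm).trans ω⟩

universe u

variable {G : Type u} [Group G]

theorem main (e : Cfsg.Spor.Fi22 ≃* G) {D : Set G}
    (hD : D = e '' {y | ∃ g : Cfsg.Spor.Fi22, g * gen 0 * g⁻¹ = y}) :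
    ∃ (s : MulAut G) (a b : G) (Cs : Subgroup G), orderOf s = 2 ∧ s ∉ (MulAut.conj : G →* MulAut G).range ∧
      (∀ g : G, g ∈ Cs ↔ s g = g) ∧
      Nonempty (↥Cs ≃* MulAut (Cfsg.Omega (ZMod 2) (Cfsg.quadFormPlus 4 (ZMod 2)))) ∧
      a ∈ D ∧ b ∈ D ∧ a ≠ b ∧ Commute a b ∧ s a = a ∧ s b = b ∧
      (∀ t : MulAut G, orderOf t = 2 → t ∉ (MulAut.conj : G →* MulAut G).range →
        (IsConj t s ∨ IsConj t (s * MulAut.conj a) ∨ IsConj t (s * MulAut.conj (a * b)))) ∧
      ¬ IsConj s (s * MulAut.conj a) ∧ ¬ IsConj s (s * MulAut.conj (a * b)) ∧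
      ¬ IsConj (s * MulAut.conj a) (s * MulAut.conj (a * b)) ∧
      (∀ g : G, (s * MulAut.conj a) g = g ↔ g ∈ Cs ⊓ Subgroup.centralizer ({a} : Set G)) ∧
      Nonempty (↥(Cs ⊓ Subgroup.centralizer ({a} : Set G)) ≃* Multiplicative (ZMod 2) × Cfsg.PSp 3 (ZMod 2)) ∧
      ∃ Csab O : Subgroup G, (∀ g : G, g ∈ Csab ↔ (s * MulAut.conj (a * b)) g = g) ∧
        O = (Cfsg.pCore 2 ↥Csab).map Csab.subtype ∧ Cfsg.IsElementaryAbelian 2 O ∧ Nat.card O = 64 ∧
        ∃ _ : (O.subgroupOf Csab).Normal, Nonempty (↥Csab ⧸ O.subgroupOf Csab ≃*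
          Cfsg.isometryGroup (ZMod 2) (Cfsg.quadFormMinus 2 (ZMod 2) 1 1)) := by
  let φ : MulAut Cfsg.Spor.Fi22 ≃* MulAut G := MulAut.congr e
  have hφ : ∀ (α : MulAut Cfsg.Spor.Fi22) (x : Cfsg.Spor.Fi22), φ α (e x) = e (α x) := fun α x => by
    show e (α (e.symm (e x))) = _
    rw [e.symm_apply_apply]
  have hconj : ∀ x : Cfsg.Spor.Fi22, φ (MulAut.conj x) = MulAut.conj (e x) := fun x => MulEquiv.ext fun y => by
    obtain ⟨y, rfl⟩ := e.surjective y
    rw [hφ, MulAut.conj_apply, MulAut.conj_apply, map_mul, map_mul, map_inv]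
  have hinn : ∀ α, φ α ∈ (MulAut.conj : G →* MulAut G).range ↔
      α ∈ (MulAut.conj : Cfsg.Spor.Fi22 →* MulAut Cfsg.Spor.Fi22).range := fun α => by
    constructor
    · rintro ⟨g, hg⟩
      obtain ⟨x, rfl⟩ := e.surjective g
      exact ⟨x, φ.injective ((hconj x).trans hg)⟩
    · rintro ⟨x, rfl⟩
      exact ⟨e x, (hconj x).symm⟩
  have hs1 : φ sigma22 * MulAut.conj (e (mem9 0)) = φ (rep22 1) := by
    rw [← hconj, ← map_mul]; rfl
  have hs2 : φ sigma22 * MulAut.conj (e (mem9 0) * e (mem9 5)) = φ (rep22 2) := by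
    rw [← map_mul e, ← hconj, ← map_mul]; rfl
  have hmem : ∀ (H : Subgroup Cfsg.Spor.Fi22) (α : MulAut Cfsg.Spor.Fi22), (∀ x, x ∈ H ↔ α x = x) →
      ∀ g, g ∈ H.map e.toMonoidHom ↔ φ α g = g := by
    intro H α hH g
    obtain ⟨x, rfl⟩ := e.surjective g
    rw [hφ, e.apply_eq_iff_eq, ← hH]
    exact Subgroup.mem_map_iff_mem e.injective
  have hmapc : (I9 ⊓ Subgroup.centralizer {mem9 0}).map e.toMonoidHom =
      I9.map e.toMonoidHom ⊓ Subgroup.centralizer {e (mem9 0)} := by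
    rw [Subgroup.map_inf _ _ _ e.injective]
    congr 1
    ext g
    obtain ⟨x, rfl⟩ := e.surjective g
    refine (Subgroup.mem_map_iff_mem e.injective).trans ?_
    rw [Subgroup.mem_centralizer_iff, Subgroup.mem_centralizer_iff]
    simp only [Set.mem_singleton_iff, forall_eq]
    rw [← map_mul, ← map_mul, e.apply_eq_iff_eq]
  have hconjTo : ∀ {r r' : ℕ}, r < 3 → r' < 3 → IsConj (φ (rep22 r)) (φ (rep22 r')) → r = r' := by
    intro r r' hr hr' h
    refine rep_not_conj hr hr' ?_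
    have := φ.symm.toMonoidHom.map_isConj h
    simpa using this
  obtain ⟨ω9⟩ := Fi22Aut8.nonempty_mulAut
  obtain ⟨ω1⟩ := nonempty_I1
  refine ⟨φ sigma22, e (mem9 0), e (mem9 5), I9.map e.toMonoidHom, ?_, ?_,
    hmem I9 sigma22 (fun x => fixed_sigma_iff.symm), ⟨(I9.equivMapOfInjective _ e.injective).symm.trans ω9⟩,
    hD ▸ ⟨_, mem9_class (by norm_num), rfl⟩, hD ▸ ⟨_, mem9_class (by norm_num), rfl⟩,
    fun h => mem9_ne (e.injective h), mem9_commute.map e.toMonoidHom,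
    by rw [hφ, sigma22_mem9 (by norm_num)], by rw [hφ, sigma22_mem9 (by norm_num)], ?_, ?_, ?_, ?_, ?_, ?_, ?_⟩
  · haveI : Fact (Nat.Prime 2) := ⟨Nat.prime_two⟩
    refine orderOf_eq_prime ?_ ?_
    · rw [pow_two, ← map_mul, sigma22_mul_self, map_one]
    · exact fun h => sigma_not_inner ((hinn _).1 (h ▸ one_mem _))
  · exact fun h => sigma_not_inner ((hinn _).1 h)
  · intro t ht hin
    obtain ⟨α, rfl⟩ := φ.surjective t
    have ha2 : α * α = 1 := φ.injective (by
      rw [map_mul, map_one, ← pow_two, ← ht, pow_orderOf_eq_one])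
    obtain ⟨r, hr, hrc⟩ := outer_classes α ha2 (fun h => hin ((hinn α).2 h))
    have := φ.toMonoidHom.map_isConj hrc
    rw [hs1, hs2]
    interval_cases r
    · exact Or.inl this
    · exact Or.inr (Or.inl this)
    · exact Or.inr (Or.inr this)
  · rw [hs1]; intro h; exact absurd (hconjTo (r := 0) (r' := 1) (by norm_num) (by norm_num) h) (by norm_num)
  · rw [hs2]; intro h; exact absurd (hconjTo (r := 0) (r' := 2) (by norm_num) (by norm_num) h) (by norm_num)
  · rw [hs1, hs2]; intro h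
    exact absurd (hconjTo (r := 1) (r' := 2) (by norm_num) (by norm_num) h) (by norm_num)
  · intro g
    rw [hs1, ← hmapc]
    exact (hmem _ _ (fun x => (rep_one_fixed_iff x).symm) g).symm
  · rw [← hmapc, inf_centralizer_eq]
    exact ⟨(I1.equivMapOfInjective _ e.injective).symm.trans ω1⟩
  · haveI := finite_K3
    haveI : Finite G := Finite.of_equiv (Cfsg.Spor.Fi22) (h := finite_fi22) e.toEquiv
    let ι : ↥(K3.map e.toMonoidHom) ≃* ↥K3 := (K3.equivMapOfInjective _ e.injective).symm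
    let f : ↥(K3.map e.toMonoidHom) →* ↥O6 := psi3.comp ι.toMonoidHom
    have hf : Function.Surjective f := psi3_facts.1.comp ι.surjective
    have hk : f.ker = psi3.ker.comap ι.toMonoidHom := rfl
    have h64 : Nat.card ↥f.ker = 64 := by
      rw [hk, Nat.card_congr (ι.toEquiv.subtypeEquiv (fun x => Iff.rfl) :
        ↥(psi3.ker.comap ι.toMonoidHom) ≃ ↥psi3.ker), psi3_facts.2]
    have hsub : (f.ker.map (K3.map e.toMonoidHom).subtype).subgroupOf (K3.map e.toMonoidHom) = f.ker :=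
      Subgroup.comap_map_eq_self_of_injective (Subgroup.subtype_injective _) _
    haveI hN : ((f.ker.map (K3.map e.toMonoidHom).subtype).subgroupOf (K3.map e.toMonoidHom)).Normal :=
      hsub.symm ▸ f.normal_ker
    refine ⟨K3.map e.toMonoidHom, f.ker.map (K3.map e.toMonoidHom).subtype, ?_, ?_, ?_, ?_, hN,
      ⟨(QuotientGroup.quotientMulEquivOfEq hsub).trans (QuotientGroup.quotientKerEquivOfSurjective f hf)⟩⟩
    · intro g
      rw [hs2]
      exact hmem K3 _ (fun x => mem_K3) g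
    · rw [pCore_of_surjective f hf h64]
    · refine elementary_of_sq _ ?_
      rintro _ ⟨x, hx, rfl⟩
      have h : ι x * ι x = 1 := ker_sq ⟨ι x, hx⟩
      rw [← map_mul, show x * x = 1 from ι.injective (by rw [map_mul, h, map_one]), map_one]
    · rw [← Nat.card_congr (f.ker.equivMapOfInjective _ (Subgroup.subtype_injective _)).toEquiv, h64]

end CfsgLib.Fi22Invol25
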