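import Cfsg.Agent.Fi22Invol25.AutPerm
import Cfsg.Agent.Fi22Invol25.Checks
import Cfsg.Agent.Fi22Invol25.GenChecks0
import Cfsg.Agent.Fi22Invol25.GenChecks1
import Cfsg.Agent.Fi22Invol25.GenChecks2
import Cfsg.Agent.Fi22Invol25.GenChecks3
import Cfsg.Agent.Fi22Invol25.GenChecks4
import Mathlib.GroupTheory.Sylow

/-!
The eighteen generators span a Sylow 2-subgroup of the graph automorphism group, with the closures of
the tails of the list a chief series.
-/

set_option autoImplicit false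
set_option maxRecDepth 100000

namespace CfsgLib.Fi22Invol25

open CfsgLib.CosetEnum CfsgLib.CosetEnum.Fi22 CfsgLib.Fi22Out CfsgLib.Fi22Aut8

/-- a generator -/
noncomputable def u (i : ℕ) : Equiv.Perm Pt := if i = 0 then outerPerm else pi (gword g9 (uWord i))

/-- the value of a word in the generators -/
noncomputable def uP (w : List ℕ) : Equiv.Perm Pt := (w.map u).prod

theorem uP_nil : uP [] = 1 := rfl

theorem uP_cons (i : ℕ) (w : List ℕ) : uP (i :: w) = u i * uP w := List.prod_cons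

theorem uP_append (v w : List ℕ) : uP (v ++ w) = uP v * uP w := by
  simp [uP, List.map_append, List.prod_append]

theorem uP_singleton (i : ℕ) : uP [i] = u i := by rw [uP_cons, uP_nil, mul_one]

theorem u_mem (i : ℕ) : u i ∈ graphAut := by
  unfold u
  split_ifs
  · exact outerPerm_mem
  · exact pi_mem_graphAut _

theorem uP_mem : ∀ w : List ℕ, uP w ∈ graphAut
  | [] => one_mem _
  | i :: w => by rw [uP_cons]; exact mul_mem (u_mem i) (uP_mem w)

theorem gen_ok {i : ℕ} (hi : i < 18) : genOK i = true := by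
  by_cases h2 : i < 2
  · exact (allFrom_iff _ _ _).1 gens_part0 i (by omega) (by omega)
  by_cases h4 : i < 4
  · exact (allFrom_iff _ _ _).1 gens_part1 i (by omega) (by omega)
  by_cases h6 : i < 6
  · exact (allFrom_iff _ _ _).1 gens_part2 i (by omega) (by omega)
  by_cases h8 : i < 8
  · exact (allFrom_iff _ _ _).1 gens_part3 i (by omega) (by omega)
  · exact (allFrom_iff _ _ _).1 gens_part4 i (by omega) (by omega)

theorem u_val {i : ℕ} (hi : i < 18) (p : Pt) : ((u i p : Pt) : ℕ) = rawU i p := by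
  have h := gen_ok hi
  simp only [genOK, Bool.and_eq_true, List.all_eq_true, Nat.blt, Nat.ble_eq] at h
  unfold u rawU
  split_ifs
  · rfl
  · exact pi_gword_apply h.1 p

theorem opt_spec {k : ℕ} (hk : k < 416) : Data.opt k < 3510 ∧ Data.opos (Data.opt k) = k := by
  have h := (Model.allBelow_iff _ _).1 opt_check k hk
  simp only [Bool.and_eq_true, Nat.blt, Nat.ble_eq] at h
  exact ⟨h.1, Nat.eq_of_beq_eq_true h.2⟩

/-- one of the 416 points -/
noncomputable def op (k : ℕ) (hk : k < 416) : Pt := pt (Data.opt k) (opt_spec hk).1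

theorem op_val {k : ℕ} (hk : k < 416) : ((op k hk : Pt) : ℕ) = Data.opt k := rfl

theorem u_op {i k : ℕ} (hi : i < 18) (hk : k < 416) :
    Data.uTab (416 * i + k) < 416 ∧ ((u i (op k hk) : Pt) : ℕ) = Data.opt (Data.uTab (416 * i + k)) := by
  have h := gen_ok hi
  simp only [genOK, Bool.and_eq_true, Model.allBelow_iff, Nat.blt, Nat.ble_eq] at h
  refine ⟨(h.2 k hk).1, ?_⟩
  rw [u_val hi, op_val, Nat.eq_of_beq_eq_true (h.2 k hk).2]

theorem uP_op : ∀ {w : List ℕ}, (∀ i ∈ w, i < 18) → ∀ {k : ℕ} (hk : k < 416),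
    uv w k < 416 ∧ ((uP w (op k hk) : Pt) : ℕ) = Data.opt (uv w k)
  | [], _, k, hk => by simp [uv, uP_nil, hk, op_val]
  | i :: w, hw, k, hk => by
    obtain ⟨h1, h2⟩ := uP_op (fun j hj => hw j (List.mem_cons_of_mem _ hj)) hk
    obtain ⟨h3, h4⟩ := u_op (hw i List.mem_cons_self) h1
    refine ⟨h3, ?_⟩
    rw [uP_cons, Equiv.Perm.mul_apply,
      show uP w (op k hk) = op (uv w k) h1 from Fin.ext (h2.trans (op_val h1).symm), h4]
    rfl

theorem bitAt_eq_testBit (r k : ℕ) : bitAt r k = r.testBit k := by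
  rw [bitAt, Nat.testBit_eq_decide_div_mod_eq, Nat.shiftRight_eq_div_pow, Bool.eq_iff_iff, Nat.beq_eq,
    decide_eq_true_iff]

theorem sep_mask_bit {b k : ℕ} (hk : k < 3510) : ∀ l : List ℕ,
    (∀ s ∈ l, bitAt (Fi22Out.Data.row s) k = bitAt (Fi22Out.Data.row s) b) →
    (l.foldr (fun s m => m &&& (if bitAt (Fi22Out.Data.row s) b then Fi22Out.Data.row s
      else Fi22Out.Data.row s ^^^ (2 ^ 3510 - 1))) (2 ^ 3510 - 1)).testBit k = true
  | [], _ => by rw [List.foldr_nil, Nat.testBit_two_pow_sub_one]; simpa using hk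
  | s :: l, h => by
    rw [List.foldr_cons, Nat.testBit_and, sep_mask_bit hk l (fun t ht => h t (List.mem_cons_of_mem _ ht)),
      Bool.true_and]
    have hs := h s List.mem_cons_self
    split_ifs with hb
    · rw [← bitAt_eq_testBit, hs, hb]
    · rw [Nat.testBit_xor, Nat.testBit_two_pow_sub_one, ← bitAt_eq_testBit, hs]
      simp [hb, hk]

theorem eq_one_of_opoints {r : Equiv.Perm Pt} (hr : r ∈ graphAut)
    (h : ∀ k ∈ Data.sepIdx, ∀ hk : k < 416, r (op k hk) = op k hk) : r = 1 := by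
  have hO : ∀ p : Pt, Data.opos p < 416 → Data.opos p ∈ Data.sepIdx → r p = p := by
    intro p hp hm
    have hc := (Model.allBelow_iff _ _).1 opos_check p p.2
    simp only [Bool.or_eq_true, Bool.not_eq_true', Nat.blt] at hc
    rcases hc with hc | hc
    · rw [Nat.ble_eq_true_of_le hp] at hc; exact Bool.noConfusion hc
    · rw [show p = op _ hp from Fin.ext (Nat.eq_of_beq_eq_true hc).symm]; exact h _ hm _
  have hs := sep_check
  simp only [Bool.and_eq_true, List.all_eq_true, Model.allBelow_iff] at hs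
  refine eq_one_of_base hr fun l hl => ?_
  have hb := hs.2 l hl
  simp only [sepOK, Bool.or_eq_true, Bool.and_eq_true, Nat.blt, Nat.ble_eq, List.contains_iff_mem] at hb
  rcases hb with hb | hb
  · exact hO _ hb.1 hb.2
  have hbit : (sepMask (npt (bnode l) : Pt)).testBit (r (npt (bnode l)) : Pt) = true := by
    refine sep_mask_bit (Fin.is_lt _) _ fun s hs' => ?_
    have hs2 := hs.1 s hs'
    simp only [Bool.and_eq_true, Nat.blt, Nat.ble_eq, List.contains_iff_mem] at hs2
    exact bit_congr hs2.1.1 hr (hO _ hs2.1.2 hs2.2) (npt (bnode l))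
  refine Fin.ext ?_
  rw [show sepMask (npt (bnode l) : Pt) = 2 ^ ((npt (bnode l) : Pt) : ℕ) from Nat.eq_of_beq_eq_true hb,
    Nat.testBit_two_pow] at hbit
  exact (of_decide_eq_true hbit).symm

theorem uP_eq {v w : List ℕ} (h : sameO v w = true) : uP v = uP w := by
  simp only [sameO, Bool.and_eq_true, List.all_eq_true, Nat.blt, Nat.ble_eq] at h
  have := eq_one_of_opoints (r := (uP w)⁻¹ * uP v) (mul_mem (inv_mem (uP_mem w)) (uP_mem v)) fun k hm hk => by
    have e : uP v (op k hk) = uP w (op k hk) := Fin.ext (by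
      rw [(uP_op h.1.1 hk).2, (uP_op h.1.2 hk).2, Nat.eq_of_beq_eq_true (h.2 k hm).2])
    rw [Equiv.Perm.mul_apply, e]; simp
  exact (inv_mul_eq_one.1 this).symm

/-- the tail of the series from `i` on -/
noncomputable def H (i : ℕ) : Subgroup (Equiv.Perm Pt) := Subgroup.closure (u '' Set.Ico i 18)

theorem H_mono {i j : ℕ} (h : i ≤ j) : H j ≤ H i :=
  Subgroup.closure_mono (Set.image_mono (Set.Ico_subset_Ico h le_rfl))

theorem u_mem_H {i j : ℕ} (h : i ≤ j) (hj : j < 18) : u j ∈ H i :=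
  Subgroup.subset_closure ⟨j, ⟨h, hj⟩, rfl⟩

theorem above_spec {i : ℕ} {w : List ℕ} (h : above i w = true) : ∀ x ∈ w, i ≤ x ∧ x < 18 := by
  intro x hx
  have := List.all_eq_true.1 h x hx
  simp only [Bool.and_eq_true, Nat.blt, Nat.ble_eq] at this
  exact this

theorem uP_mem_H {i : ℕ} : ∀ {w : List ℕ}, (∀ x ∈ w, i ≤ x ∧ x < 18) → uP w ∈ H i
  | [], _ => one_mem _
  | x :: w, h => by
    rw [uP_cons]
    exact mul_mem (u_mem_H (h x List.mem_cons_self).1 (h x List.mem_cons_self).2)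
      (uP_mem_H fun y hy => h y (List.mem_cons_of_mem _ hy))

theorem H_le_graphAut (i : ℕ) : H i ≤ graphAut := by
  rw [H, Subgroup.closure_le]
  rintro _ ⟨j, -, rfl⟩
  exact u_mem j

theorem sq_mem {a : ℕ} (ha : a < 18) : u a * u a ∈ H (a + 1) := by
  have h := (Model.allBelow_iff _ _).1 sq_check a ha
  rw [Bool.and_eq_true] at h
  have e := uP_eq h.2
  rw [uP_cons, uP_singleton] at e
  rw [e]
  exact uP_mem_H (above_spec h.1)

theorem conj_gen_mem {a b : ℕ} (hab : a < b) (hb : b < 18) : u a * u b * (u a)⁻¹ ∈ H b := by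
  have h := (Model.allBelow_iff _ _).1 ((Model.allBelow_iff _ _).1 cj_check a (by omega)) b hb
  simp only [Bool.or_eq_true, Bool.and_eq_true, Nat.ble_eq] at h
  obtain ⟨h1, h2⟩ := h.resolve_left (by omega)
  have e := uP_eq h2
  rw [uP_cons, uP_singleton, uP_append, uP_singleton] at e
  rw [mul_inv_eq_of_eq_mul e]
  exact uP_mem_H (above_spec h1)

theorem conj_u_mem {a i : ℕ} (ha : a < 18) {x : Equiv.Perm Pt} (hx : x ∈ H i) :
    u a * x * (u a)⁻¹ ∈ H i := by
  induction hx using Subgroup.closure_induction with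
  | mem y hy =>
    obtain ⟨b, ⟨hib, hb⟩, rfl⟩ := hy
    by_cases hab : a < b
    · exact H_mono hib (conj_gen_mem hab hb)
    · exact mul_mem (mul_mem (u_mem_H (by omega) ha) (u_mem_H hib hb)) (inv_mem (u_mem_H (by omega) ha))
  | one => simp
  | mul y z _ _ hy hz =>
    rw [show u a * (y * z) * (u a)⁻¹ = u a * y * (u a)⁻¹ * (u a * z * (u a)⁻¹) by group]
    exact mul_mem hy hz
  | inv y _ hy =>
    rw [show u a * y⁻¹ * (u a)⁻¹ = (u a * y * (u a)⁻¹)⁻¹ by group]
    exact inv_mem hy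

theorem conj_mem {i : ℕ} {c x : Equiv.Perm Pt} (hc : c ∈ H 0) (hx : x ∈ H i) : c * x * c⁻¹ ∈ H i := by
  have hfin : ∀ a < 18, ∀ y ∈ H i, (u a)⁻¹ * y * u a ∈ H i := by
    intro a ha y hy
    have hle : (H i).map (MulAut.conj (u a)).toMonoidHom ≤ H i := by
      rintro _ ⟨z, hz, rfl⟩; exact conj_u_mem ha hz
    have heq : (H i).map (MulAut.conj (u a)).toMonoidHom = H i :=
      Subgroup.eq_of_le_of_card_ge hle
        (le_of_eq (Nat.card_congr (Subgroup.equivMapOfInjective _ _ (MulEquiv.injective _)).toEquiv))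
    rw [← heq] at hy
    obtain ⟨z, hz, rfl⟩ := hy
    rw [show (MulAut.conj (u a)).toMonoidHom z = u a * z * (u a)⁻¹ from rfl,
      show (u a)⁻¹ * (u a * z * (u a)⁻¹) * u a = z by group]
    exact hz
  induction hc using Subgroup.closure_induction_left generalizing x with
  | one => simpa using hx
  | mul_left y hy z _ ih =>
    obtain ⟨a, ⟨-, ha⟩, rfl⟩ := hy
    rw [show u a * z * x * (u a * z)⁻¹ = u a * (z * x * z⁻¹) * (u a)⁻¹ by group]
    exact conj_u_mem ha (ih hx)
  | inv_mul_cancel y hy z _ ih =>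
    obtain ⟨a, ⟨-, ha⟩, rfl⟩ := hy
    rw [show (u a)⁻¹ * z * x * ((u a)⁻¹ * z)⁻¹ = (u a)⁻¹ * (z * x * z⁻¹) * u a by group]
    exact hfin a ha _ (ih hx)

theorem mem_H_cases {i : ℕ} (hi : i < 18) {x : Equiv.Perm Pt} (hx : x ∈ H i) :
    x ∈ H (i + 1) ∨ ∃ h ∈ H (i + 1), x = u i * h := by
  have hn : ∀ y ∈ H (i + 1), (u i)⁻¹ * y * u i ∈ H (i + 1) := fun y hy => by
    have := conj_mem (i := i + 1) (inv_mem (u_mem_H (i := 0) (Nat.zero_le _) hi)) hy
    rwa [inv_inv] at this
  have hcase : ∀ j, i ≤ j → j < 18 → u j ∈ H (i + 1) ∨ j = i := fun j h1 h2 => by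
    rcases eq_or_lt_of_le h1 with h | h
    · exact Or.inr h.symm
    · exact Or.inl (u_mem_H h h2)
  induction hx using Subgroup.closure_induction_left with
  | one => exact Or.inl (one_mem _)
  | mul_left y hy z _ ih =>
    obtain ⟨j, ⟨h1, h2⟩, rfl⟩ := hy
    rcases hcase j h1 h2 with hj | rfl
    · rcases ih with hz | ⟨h, hh, rfl⟩
      · exact Or.inl (mul_mem hj hz)
      · exact Or.inr ⟨(u i)⁻¹ * u j * u i * h, mul_mem (hn _ hj) hh, by group⟩
    · rcases ih with hz | ⟨h, hh, rfl⟩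
      · exact Or.inr ⟨z, hz, rfl⟩
      · exact Or.inl (by rw [← mul_assoc]; exact mul_mem (sq_mem hi) hh)
  | inv_mul_cancel y hy z _ ih =>
    obtain ⟨j, ⟨h1, h2⟩, rfl⟩ := hy
    rcases hcase j h1 h2 with hj | rfl
    · rcases ih with hz | ⟨h, hh, rfl⟩
      · exact Or.inl (mul_mem (inv_mem hj) hz)
      · exact Or.inr ⟨(u i)⁻¹ * (u j)⁻¹ * u i * h, mul_mem (hn _ (inv_mem hj)) hh, by group⟩
    · rcases ih with hz | ⟨h, hh, rfl⟩
      · exact Or.inr ⟨(u j * u j)⁻¹ * z, mul_mem (inv_mem (sq_mem hi)) hz, by group⟩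
      · exact Or.inl (by rw [← mul_assoc, inv_mul_cancel, one_mul]; exact hh)

theorem H_top : H 18 = ⊥ := by
  rw [H, Set.Ico_self, Set.image_empty, Subgroup.closure_empty]

theorem card_H_step {i : ℕ} (hi : i < 18) : Nat.card ↥(H i) ≤ 2 * Nat.card ↥(H (i + 1)) := by
  have hle : H (i + 1) ≤ H i := H_mono (Nat.le_succ i)
  let f : Bool × ↥(H (i + 1)) → ↥(H i) := fun p =>
    cond p.1 ⟨u i * p.2, mul_mem (u_mem_H le_rfl hi) (hle p.2.2)⟩ ⟨p.2, hle p.2.2⟩
  have hf : Function.Surjective f := by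
    rintro ⟨x, hx⟩
    rcases mem_H_cases hi hx with h | ⟨h, hh, rfl⟩
    · exact ⟨(false, ⟨x, h⟩), rfl⟩
    · exact ⟨(true, ⟨h, hh⟩), rfl⟩
  refine (Nat.card_le_card_of_surjective f hf).trans (le_of_eq ?_)
  rw [Nat.card_prod, Nat.card_eq_fintype_card (α := Bool), Fintype.card_bool]

theorem card_H_le : ∀ {i : ℕ}, i ≤ 18 → Nat.card ↥(H i) ≤ 2 ^ (18 - i) := by
  intro i hi
  induction hd : 18 - i generalizing i with
  | zero => rw [show i = 18 by omega, H_top, Subgroup.card_bot]; simp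
  | succ d ih =>
    refine (card_H_step (by omega)).trans ?_
    rw [pow_succ, mul_comm]
    exact Nat.mul_le_mul_right _ (ih (i := i + 1) (by omega) (by omega))

/-- elements fixing the first points of the chain -/
noncomputable def P (l : ℕ) : Subgroup (Equiv.Perm Pt) where
  carrier := {x | x ∈ H 0 ∧ ∀ j < l, ∀ h : chPt j < 416, x (op _ h) = op _ h}
  one_mem' := ⟨one_mem _, fun _ _ _ => rfl⟩
  mul_mem' := fun hx hy => ⟨mul_mem hx.1 hy.1, fun j hj h => by
    rw [Equiv.Perm.mul_apply, hy.2 j hj h, hx.2 j hj h]⟩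
  inv_mem' := fun hx => ⟨inv_mem hx.1, fun j hj h => by
    rw [Equiv.Perm.inv_eq_iff_eq, hx.2 j hj h]⟩

theorem card_P_step {l : ℕ} (hl : l < 7) : (chWords l).length * Nat.card ↥(P (l + 1)) ≤ Nat.card ↥(P l) := by
  have h := (Model.allBelow_iff _ _).1 chain_check l hl
  simp only [levelOK, Bool.and_eq_true, List.all_eq_true, Nat.blt, Nat.ble_eq, Model.allBelow_iff] at h
  obtain ⟨⟨hp, hw⟩, hd⟩ := h
  have hmem : ∀ i : Fin (chWords l).length, uP ((chWords l).getD i []) ∈ P l := by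
    intro i
    rw [List.getD_eq_getElem _ _ i.2]
    obtain ⟨h1, h2⟩ := hw _ (List.getElem_mem i.2)
    refine ⟨uP_mem_H fun x hx => ⟨Nat.zero_le _, h1 x hx⟩, fun j hj hjl => Fin.ext ?_⟩
    rw [(uP_op h1 hjl).2, Nat.eq_of_beq_eq_true (h2 j hj), op_val]
  let f : Fin (chWords l).length × ↥(P (l + 1)) → ↥(P l) := fun p =>
    ⟨uP ((chWords l).getD p.1 []) * p.2,
      mul_mem (hmem p.1) ⟨p.2.2.1, fun j hj h => p.2.2.2 j (Nat.lt_succ_of_lt hj) h⟩⟩
  have hf : Function.Injective f := by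
    rintro ⟨i, x⟩ ⟨j, y⟩ e
    have e' : uP ((chWords l).getD i []) * (x : Equiv.Perm Pt) = uP ((chWords l).getD j []) * y :=
      congrArg Subtype.val e
    have hwi : ∀ k : Fin (chWords l).length, ∀ z ∈ (chWords l).getD k [], z < 18 := fun k => by
      rw [List.getD_eq_getElem _ _ k.2]; exact (hw _ (List.getElem_mem k.2)).1
    have hij : i = j := by
      have e1 := congrArg (fun r : Equiv.Perm Pt => ((r (op _ hp) : Pt) : ℕ)) e'
      simp only [Equiv.Perm.mul_apply, x.2.2 l (Nat.lt_succ_self l) hp, y.2.2 l (Nat.lt_succ_self l) hp,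
        (uP_op (hwi i) hp).2, (uP_op (hwi j) hp).2] at e1
      have e2 := congrArg Data.opos e1
      rw [(opt_spec (uP_op (hwi i) hp).1).2, (opt_spec (uP_op (hwi j) hp).1).2] at e2
      have := hd i i.2 j j.2
      simp only [Bool.or_eq_true, Bool.not_eq_true', e2, Nat.beq_refl] at this
      exact Fin.ext (Nat.eq_of_beq_eq_true (this.resolve_right Bool.noConfusion))
    subst hij
    rw [mul_right_inj] at e'
    exact Prod.ext rfl (Subtype.ext e')
  have := Nat.card_le_card_of_injective f hf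
  rwa [Nat.card_prod, Nat.card_fin] at this

theorem card_H_zero : Nat.card ↥(H 0) = 2 ^ 18 := by
  refine le_antisymm (card_H_le (Nat.zero_le _)) ?_
  have h : ∀ l ≤ 7, ((List.range l).map fun j => (chWords j).length).prod * Nat.card ↥(P l) ≤
      Nat.card ↥(P 0) := by
    intro l hl
    induction l with
    | zero => simp
    | succ l ih =>
      refine le_trans ?_ (ih (by omega))
      rw [List.range_succ, List.map_append, List.prod_append, List.map_singleton, List.prod_singleton,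
        mul_assoc]
      exact Nat.mul_le_mul_left _ (card_P_step (by omega))
  have h7 := h 7 le_rfl
  rw [chain_prod] at h7
  have hP : P 0 = H 0 := SetLike.ext fun x =>
    (Iff.intro (fun hx => hx.1) fun hx => ⟨hx, fun j hj => absurd hj (by omega)⟩ :
      (x ∈ H 0 ∧ ∀ j < 0, ∀ h : chPt j < 416, x (op _ h) = op _ h) ↔ x ∈ H 0)
  have h1 : 1 ≤ Nat.card ↥(P 7) := Nat.card_pos
  rw [hP] at h7
  calc 2 ^ 18 = 262144 * 1 := by norm_num
    _ ≤ 262144 * Nat.card ↥(P 7) := Nat.mul_le_mul_left _ h1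
    _ ≤ _ := h7

theorem u_not_mem {i : ℕ} (hi : i < 18) : u i ∉ H (i + 1) := by
  intro hu
  have he : H i = H (i + 1) := by
    refine le_antisymm (fun x hx => ?_) (H_mono (Nat.le_succ i))
    rcases mem_H_cases hi hx with h | ⟨h, hh, rfl⟩
    · exact h
    · exact mul_mem hu hh
  have h0 : ∀ j ≤ i, Nat.card ↥(H 0) ≤ 2 ^ j * Nat.card ↥(H j) := by
    intro j hj
    induction j with
    | zero => simp
    | succ j ih =>
      refine (ih (by omega)).trans ?_
      rw [pow_succ, mul_assoc]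
      exact Nat.mul_le_mul_left _ (card_H_step (by omega))
  have h1 := h0 i le_rfl
  rw [he, card_H_zero] at h1
  have h2 := Nat.mul_le_mul_left (2 ^ i) (card_H_le (i := i + 1) (by omega))
  rw [← pow_add] at h2
  have h3 : (2 : ℕ) ^ (i + (18 - (i + 1))) < 2 ^ 18 := Nat.pow_lt_pow_right (by norm_num) (by omega)
  omega

theorem exists_conj_mem {x : Equiv.Perm Pt} (hx : x ∈ graphAut) (h2 : x * x = 1) :
    ∃ c ∈ graphAut, c * x * c⁻¹ ∈ H 0 := by
  classical
  haveI : Fact (Nat.Prime 2) := ⟨Nat.prime_two⟩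
  have hp : IsPGroup 2 ↥((H 0).subgroupOf graphAut) := by
    refine IsPGroup.of_card (n := 18) ?_
    rw [Nat.card_congr (Subgroup.subgroupOfEquivOfLe (H_le_graphAut 0)).toEquiv, card_H_zero]
  have hidx : ¬ 2 ∣ ((H 0).subgroupOf graphAut).index := by
    have h := ((H 0).subgroupOf graphAut).card_mul_index
    rw [Nat.card_congr (Subgroup.subgroupOfEquivOfLe (H_le_graphAut 0)).toEquiv, card_H_zero,
      card_graphAut_eq] at h
    intro hd
    omega
  let S : Sylow 2 ↥graphAut := hp.toSylow hidx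
  let x' : ↥graphAut := ⟨x, hx⟩
  have hz : IsPGroup 2 ↥(Subgroup.zpowers x') := by
    rintro ⟨y, hy⟩
    obtain ⟨k, rfl⟩ := Subgroup.mem_zpowers_iff.1 hy
    refine ⟨1, Subtype.ext ?_⟩
    show (x' ^ k) ^ (2 ^ 1) = 1
    rw [pow_one, ← zpow_natCast, ← zpow_mul, mul_comm, zpow_mul, zpow_natCast, pow_two,
      show x' * x' = 1 from Subtype.ext h2, one_zpow]
  obtain ⟨Q, hQ⟩ := hz.exists_le_sylow
  obtain ⟨c, hc⟩ := MulAction.exists_smul_eq ↥graphAut Q S
  refine ⟨c, c.2, ?_⟩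
  have hm : c * x' * c⁻¹ ∈ (S : Subgroup ↥graphAut) := by
    rw [← hc]
    exact ⟨x', hQ (Subgroup.mem_zpowers x'), rfl⟩
  exact hm

end CfsgLib.Fi22Invol25
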