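import Cfsg.Agent.Fi22Invol25.LeafDefs
import Cfsg.Agent.Fi22Invol25.TwoData
import Cfsg.Agent.Fi22Aut8.Weyl

/-! Kernel checks: the 72 points fixed by the third representative and their vectors. -/

set_option autoImplicit false
set_option maxRecDepth 100000

namespace CfsgLib.Fi22Invol25

open CfsgLib.CosetEnum CfsgLib.CosetEnum.Fi22 CfsgLib.Fi22Out CfsgLib.Fi22Aut8 CfsgLib.O8Mult

/-- the point of an index -/
def f2 (i : ℕ) : ℕ := TwoData.pts.getD i 0

/-- the vector of an index -/
def c2 (i : ℕ) : ℕ := TwoData.codes.getD i 0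

/-- the other index of a pair -/
def m2 (i : ℕ) : ℕ := TwoData.mate.getD i 0

/-- the index of a generating point -/
def gIdx (t : ℕ) : ℕ := TwoData.gens.getD t 0

/-- the letters of a generating transposition -/
def gFull (t : ℕ) : List ℕ := TwoData.gWords.getD t [] ++ [0] ++ (TwoData.gWords.getD t []).reverse

/-- a generating transposition on the indices -/
def gImg (t x : ℕ) : ℕ := ((TwoData.gRows.getD t 0) >>> (7 * x)) % 128

/-- a product of generating transpositions on the indices -/
def gRun : List ℕ → ℕ → ℕ
  | [], x => x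
  | t :: u, x => gImg t (gRun u x)

/-- the generating transpositions whose product is the transposition of an index -/
def pFull (i : ℕ) : List ℕ :=
  TwoData.pWords.getD i [] ++ [TwoData.pGen.getD i 0] ++ (TwoData.pWords.getD i []).reverse

/-- the transposition of an index on the indices -/
def img2 (i x : ℕ) : ℕ := gRun (pFull i) x

/-- the elliptic form on masks -/
def q6 (c : ℕ) : Bool :=
  ((c.testBit 0 && c.testBit 2) ^^ (c.testBit 1 && c.testBit 3)) ^^
    ((c.testBit 4 ^^ (c.testBit 4 && c.testBit 5)) ^^ c.testBit 5)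

/-- the bilinear form on masks -/
def b6 (c d : ℕ) : Bool := q6 (c ^^^ d) ^^ (q6 c ^^ q6 d)

theorem pts_check : allBelow (fun i => (f2 i).blt 3510 && (c2 i).blt 64 && q6 (c2 i) && (m2 i).blt 72 &&
    allBelow (fun j => Nat.beq i j || !(Nat.beq (f2 i) (f2 j))) 72 &&
    allBelow (fun j => !(Nat.beq (c2 j) (c2 i)) || Nat.beq j i || Nat.beq j (m2 i)) 72) 72 = true := by
  decide +kernel

theorem fix_check : allBelow (fun p => Nat.beq (repFun 2 p) p == TwoData.pts.any (Nat.beq p)) 3510 = true := by
  decide +kernel

theorem fix_len : TwoData.pts.length = 72 := by decide +kernel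

theorem gword_check : allBelow (fun t => (gIdx t).blt 72 && (gFull t).all (fun x => x.blt 9) &&
    Nat.beq (runT Tab.perm.T Tab.perm.L (TwoData.gWords.getD t []).reverse 0) (f2 (gIdx t))) 7 = true := by
  decide +kernel

theorem gimg_check0 : allFrom (fun t => allBelow (fun x => (gImg t x).blt 72 &&
    Nat.beq (runT Tab.perm.T Tab.perm.L (gFull t).reverse (f2 x)) (f2 (gImg t x))) 72) 0 4 = true := by
  decide +kernel

theorem gimg_check1 : allFrom (fun t => allBelow (fun x => (gImg t x).blt 72 &&
    Nat.beq (runT Tab.perm.T Tab.perm.L (gFull t).reverse (f2 x)) (f2 (gImg t x))) 72) 4 3 = true := by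
  decide +kernel

theorem pword_check : allBelow (fun i => (TwoData.pGen.getD i 0).blt 7 &&
    (TwoData.pWords.getD i []).all (fun t => t.blt 7) &&
    Nat.beq (gRun (TwoData.pWords.getD i []) (gIdx (TwoData.pGen.getD i 0))) i) 72 = true := by
  decide +kernel

theorem adj_check : allBelow (fun i => allBelow (fun j =>
    Nat.beq (img2 i j) j == !(b6 (c2 i) (c2 j))) 72) 72 = true := by
  decide +kernel

/-- the steps stay among the known indices and are images -/
def stepsOK : List ℕ → List (ℕ × ℕ × ℕ) → Bool
  | _, [] => true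
  | seen, (i, k, j) :: r =>
    i.blt 72 && k.blt 72 && j.blt 72 && seen.any (Nat.beq i) && seen.any (Nat.beq k) &&
      Nat.beq (img2 i k) j && stepsOK (j :: seen) r

/-- the steps start at known indices and are images -/
def orbitOK : List ℕ → List (ℕ × ℕ × ℕ) → Bool
  | _, [] => true
  | seen, (i, k, j) :: r =>
    i.blt 72 && k.blt 72 && j.blt 72 && seen.any (Nat.beq k) && Nat.beq (img2 i k) j && orbitOK (j :: seen) r

/-- the indices after the steps -/
def reached : List ℕ → List (ℕ × ℕ × ℕ) → List ℕ
  | seen, [] => seen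
  | seen, (_, _, j) :: r => reached (j :: seen) r

theorem steps_check : (stepsOK TwoData.six TwoData.steps && TwoData.six.all (fun i => i.blt 72) &&
    allBelow (fun j => (reached TwoData.six TwoData.steps).any fun r => r.blt 72 && Nat.beq (c2 r) (c2 j)) 72) = true := by
  decide +kernel

theorem orbit_check : (orbitOK [2] TwoData.orbit &&
    allBelow (fun j => (reached [2] TwoData.orbit).any (Nat.beq j)) 72) = true := by
  decide +kernel

theorem ab_check : f2 2 = Fi22Aut8.Data.maskPt 69 ∧ f2 3 = Fi22Aut8.Data.maskPt 100 ∧ c2 2 = c2 3 ∧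
    m2 2 = 3 := by
  decide +kernel

theorem span_check : (TwoData.span.all fun p => p.1.blt 72 && p.2.blt 256 && qb p.2 &&
    Nat.beq (f2 p.1) (Fi22Aut8.Data.maskPt p.2)) = true := by
  decide +kernel

theorem moves_check : [[0], [5], [0, 5]].all (fun w => w.all (fun j => j.blt 9) &&
    (List.range 72).any fun i => !(Nat.beq (ev w (f2 i)) (f2 i))) = true := by
  decide +kernel

end CfsgLib.Fi22Invol25
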